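import Mathlib
import Cfsg.Prelude.Def_Classical
import Cfsg.Agent.LieClassical.HermBasic
import Cfsg.Agent.LieClassical.HermSiegel
import Cfsg.Agent.ClassicalGeometry.HermFrame
import Cfsg.Agent.ClassicalGeometry.HermWitt
import Cfsg.Agent.ClassicalGeometry.PSUAutTorus
import Cfsg.Agent.ClassicalGeometry.GUBasic
import Cfsg.Agent.H156.PSLCov
import Cfsg.Agent.ClassicalGeometry.HermOrtho
import Cfsg.Agent.ClassicalGeometry.UnitTransv
import Cfsg.Agent.ClassicalGeometry.PSUAutBasic
set_option linter.all false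

-- part: H156/Art
section
set_option autoImplicit false

/-!
# Artin-Schreier elements in characteristic three and commutators (helper156)
-/

namespace Cfsg.Agent.H156.Art

open Polynomial

section Scalars

variable {F : Type*} [Field F] [CharP F 3]

omit [CharP F 3] in
theorem cube_injective [CharP F 3] : Function.Injective (fun x : F => x ^ 3) := by
  have : Fact (Nat.Prime 3) := ⟨Nat.prime_three⟩
  exact frobenius_inj F 3

theorem cube_surjective [Finite F] : Function.Surjective (fun x : F => x ^ 3) :=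
  Finite.injective_iff_surjective.1 cube_injective

theorem pow_three_pow_surjective [Finite F] (N : ℕ) : Function.Surjective (fun x : F => x ^ (3 ^ N)) := by
  induction N with
  | zero => intro x; exact ⟨x, by simp⟩
  | succ N ih =>
    intro x
    obtain ⟨y, hy⟩ := ih x
    obtain ⟨z, hz⟩ := cube_surjective y
    refine ⟨z, ?_⟩
    show z ^ (3 ^ (N + 1)) = x
    have hz' : z ^ 3 = y := hz
    rw [pow_succ, mul_comm, pow_mul, hz']
    exact hy

theorem pow_three_pow_injective (N : ℕ) : Function.Injective (fun x : F => x ^ (3 ^ N)) := by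
  have : Fact (Nat.Prime 3) := ⟨Nat.prime_three⟩
  exact iterateFrobenius_inj F 3 N

/-- Solutions of `d³ = d`. -/
theorem fixed_cases {R : Type*} [CommRing R] [IsDomain R] [CharP R 3] {d : R} (h : d ^ 3 = d) :
    d = 0 ∨ d = 1 ∨ d = 2 := by
  have h3 : (3 : R) = 0 := by exact_mod_cast CharP.cast_eq_zero R 3
  have : d * ((d - 1) * (d - 2)) = 0 := by
    linear_combination h - d * (d - 1) * h3
  rcases mul_eq_zero.1 this with h | h
  · exact Or.inl h
  · rcases mul_eq_zero.1 h with h | h
    · exact Or.inr (Or.inl (sub_eq_zero.1 h))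
    · exact Or.inr (Or.inr (sub_eq_zero.1 h))

theorem sub_as (x y : F) : (x - y) ^ 3 - (x - y) = (x ^ 3 - x) - (y ^ 3 - y) := by
  have : Fact (Nat.Prime 3) := ⟨Nat.prime_three⟩
  rw [sub_pow_char (p := 3) x y]; ring

omit [CharP F 3] in
theorem exists_not_AS [Finite F] : ∃ c : F, ∀ x : F, x ^ 3 - x ≠ c := by
  by_contra hcon
  push Not at hcon
  have hsurj : Function.Surjective (fun x : F => x ^ 3 - x) := hcon
  have hinj := Finite.injective_iff_surjective.mpr hsurj
  have h01 : (0 : F) = 1 := hinj (by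
    show (0 : F) ^ 3 - 0 = 1 ^ 3 - 1
    ring)
  exact zero_ne_one h01

omit [CharP F 3] in
theorem natDegree_AS (c : F) : (X ^ 3 - X - C c : F[X]).natDegree = 3 := by
  compute_degree!

omit [CharP F 3] in
theorem irr_AS {c : F} (h : ∀ x : F, x ^ 3 - x ≠ c) : Irreducible (X ^ 3 - X - C c : F[X]) := by
  apply Polynomial.irreducible_of_degree_le_three_of_not_isRoot
  · rw [natDegree_AS]; simp
  · intro x hx
    rw [IsRoot.def, eval_sub, eval_sub, eval_pow, eval_X, eval_C, sub_eq_zero] at hx
    exact h x hx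

end Scalars

section Ring

variable {F R : Type*} [Field F] [CharP F 3] [Ring R] [Algebra F R]

theorem three_eq_zero (F R : Type*) [Field F] [CharP F 3] [Ring R] [Algebra F R] : (3 : R) = 0 := by
  have h : (3 : F) = 0 := by exact_mod_cast CharP.cast_eq_zero F 3
  have := congrArg (algebraMap F R) h
  rwa [map_ofNat, map_zero] at this

theorem charP (F R : Type*) [Field F] [CharP F 3] [Ring R] [Algebra F R] [Nontrivial R] : CharP R 3 :=
  charP_of_injective_algebraMap (algebraMap F R).injective 3

/-- The Jacobson formula, special case. -/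
theorem jacobson (F : Type*) {R : Type*} [Field F] [CharP F 3] [Ring R] [Algebra F R]
    {u u' t : R} (h1 : u * u' = 1) (h2 : u' * u = 1) (ht : u * t = (t + 1) * u)
    (b : R) (hb : ∀ x, Commute b x) :
    (t + b * (u + u')) ^ 3 = t ^ 3 + b * (u + u') + b ^ 3 * (u + u') ^ 3 := by
  have h3 := three_eq_zero F R
  -- commutation of `t` with `u'`
  have ht' : u' * t = (t - 1) * u' := by
    have e : u' * (u * t) * u' = u' * ((t + 1) * u) * u' := by rw [ht]
    have e1 : u' * (u * t) * u' = t * u' := by rw [← mul_assoc, h2, one_mul]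
    have e2 : u' * ((t + 1) * u) * u' = u' * t + u' := by
      rw [mul_assoc, mul_assoc, h1, mul_one, mul_add, mul_one]
    rw [e1, e2] at e
    rw [sub_mul, one_mul, e, add_sub_cancel_right]
  set y := u + u' with hy
  -- normal forms
  have hut : t * u = u * t - u := by rw [ht, add_mul, one_mul, add_sub_cancel_right]
  have hu't : t * u' = u' * t + u' := by rw [ht', sub_mul, one_mul, sub_add_cancel]
  have hd : t * y = y * t - u + u' := by
    rw [hy, mul_add, hut, hu't, add_mul]; abel
  have e1 : t * t * y + t * y * t + y * t * t = y + 3 * (t * y * t) := by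
    have a1 : t * t * y = t * y * t + (y - t * 0) + (t * y * t - y * t * t) := by
      rw [mul_assoc, hd, mul_add, mul_sub, ← mul_assoc, hut, hu't, hd]
      rw [hy]
      noncomm_ring
    rw [a1]
    noncomm_ring
  have e2 : t * y * y + y * t * y + y * y * t = 3 * (y * t * y) := by
    have c1 : y * u = u * y := by rw [hy, add_mul, mul_add, h1, h2]
    have c2 : y * u' = u' * y := by rw [hy, add_mul, mul_add, h1, h2]
    have a1 : t * y * y = y * t * y - u * y + u' * y := by rw [hd, add_mul, sub_mul]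
    have a2 : y * y * t = y * t * y + u * y - u' * y := by
      have : y * (t * y) = y * y * t - y * u + y * u' := by
        rw [hd, mul_add, mul_sub, mul_assoc]
      rw [← mul_assoc, c1, c2] at this
      rw [this]; abel
    rw [a1, a2]
    noncomm_ring
  have hbt := (hb t).eq
  have hby := (hb y).eq
  have expand : (t + b * y) ^ 3 = t ^ 3 + b * (t * t * y + t * y * t + y * t * t) +
      b ^ 2 * (t * y * y + y * t * y + y * y * t) + b ^ 3 * y ^ 3 := by
    have k1 : ∀ x : R, x * b = b * x := fun x => ((hb x).eq).symm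
    have k2 : ∀ x z : R, x * (b * z) = b * (x * z) := fun x z => by
      rw [← mul_assoc, k1, mul_assoc]
    simp only [pow_succ, pow_zero, one_mul, mul_add, add_mul, mul_assoc, k2, k1]
    abel
  rw [expand, e1, e2, h3, zero_mul, zero_mul, mul_zero, add_zero, add_zero]

theorem isNilpotent_three_pow {x : R} (h : IsNilpotent x) : ∃ N, ∀ M, N ≤ M → x ^ (3 ^ M) = 0 := by
  obtain ⟨n, hn⟩ := h
  refine ⟨n, fun M hM => ?_⟩
  have h1 : n ≤ 3 ^ M := hM.trans (Nat.lt_pow_self (by norm_num)).le
  exact pow_eq_zero_of_le h1 hn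

/-- The core construction. -/
theorem core [Finite F] [Nontrivial R] {u u' t : R} (h1 : u * u' = 1) (h2 : u' * u = 1)
    (ht : u * t = (t + 1) * u) {lz ly : F} {nz ny : R} (hz : t ^ 3 - t = algebraMap F R lz + nz)
    (hy : u + u' = algebraMap F R ly + ny) (hnz : IsNilpotent nz) (hny : IsNilpotent ny)
    (hly : ly ≠ 0) (c1 : F) :
    ∃ (N : ℕ) (c0 β : F), c0 ^ (3 ^ N) = c1 ∧ β ^ 3 * ly ^ 3 = c0 - lz ∧
      (((t + algebraMap F R β * (u + u')) ^ (3 ^ N)) ^ 3 -
        (t + algebraMap F R β * (u + u')) ^ (3 ^ N)) = algebraMap F R c1 := by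
  have hp : Fact (Nat.Prime 3) := ⟨Nat.prime_three⟩
  have hchar : CharP R 3 := charP F R
  obtain ⟨N1, hN1⟩ := isNilpotent_three_pow hnz
  obtain ⟨N2, hN2⟩ := isNilpotent_three_pow hny
  obtain ⟨c0, hc0⟩ := pow_three_pow_surjective (N1 + N2) c1
  obtain ⟨β, hβ⟩ := cube_surjective ((c0 - lz) * (ly ^ 3)⁻¹)
  have hβ' : β ^ 3 * ly ^ 3 = c0 - lz := by
    have : β ^ 3 = (c0 - lz) * (ly ^ 3)⁻¹ := hβ
    rw [this, mul_assoc, inv_mul_cancel₀ (pow_ne_zero _ hly), mul_one]
  refine ⟨N1 + N2, c0, β, hc0, hβ', ?_⟩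
  have hcomm : ∀ (a : F) (x : R), Commute (algebraMap F R a) x := fun a x => Algebra.commutes a x
  have hj := jacobson F h1 h2 ht (algebraMap F R β) (hcomm β)
  set w := t + algebraMap F R β * (u + u') with hw
  -- `nz` commutes with `ny`
  have hut : t * u = u * t - u := by rw [ht, add_mul, one_mul, add_sub_cancel_right]
  have hzu : Commute (t ^ 3 - t) u := by
    have e : u * t ^ 3 = (t + 1) ^ 3 * u := by
      rw [pow_succ, pow_two, pow_succ, pow_two, ← mul_assoc, ← mul_assoc, ht, mul_assoc (t + 1) u t, ht,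
        ← mul_assoc, mul_assoc ((t + 1) * (t + 1)) u t, ht, ← mul_assoc]
    have e2 : (t + 1) ^ 3 = t ^ 3 + 1 := by
      rw [add_pow_char_of_commute 3 (Commute.one_right t), one_pow]
    show (t ^ 3 - t) * u = u * (t ^ 3 - t)
    rw [mul_sub, e, e2, ht]
    noncomm_ring
  have hzu' : Commute (t ^ 3 - t) u' := by
    have e := hzu.eq
    show (t ^ 3 - t) * u' = u' * (t ^ 3 - t)
    calc (t ^ 3 - t) * u' = u' * (u * (t ^ 3 - t)) * u' := by rw [← mul_assoc, h2, one_mul]
      _ = u' * (t ^ 3 - t) * (u * u') := by rw [← e]; noncomm_ring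
      _ = u' * (t ^ 3 - t) := by rw [h1, mul_one]
  have hny_eq : ny = (u + u') - algebraMap F R ly := by rw [hy]; abel
  have hnz_eq : nz = (t ^ 3 - t) - algebraMap F R lz := by rw [hz]; abel
  have hnn : Commute nz ny := by
    rw [hny_eq, hnz_eq]
    exact ((hzu.add_right hzu').sub_left (hcomm lz _)).sub_right
      ((hcomm ly _).symm)
  have hy3 : (u + u') ^ 3 = algebraMap F R (ly ^ 3) + ny ^ 3 := by
    rw [hy, add_pow_char_of_commute 3 (hcomm ly ny), map_pow]
  have hw3 : w ^ 3 - w = algebraMap F R c0 + (nz + algebraMap F R (β ^ 3) * ny ^ 3) := by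
    rw [hj, hw]
    have : t ^ 3 + algebraMap F R β * (u + u') + algebraMap F R β ^ 3 * (u + u') ^ 3 -
        (t + algebraMap F R β * (u + u')) = (t ^ 3 - t) + algebraMap F R β ^ 3 * (u + u') ^ 3 := by abel
    rw [this, hz, hy3, mul_add, ← map_pow, ← map_mul, hβ', map_sub]
    abel
  have e3 : (w ^ 3 - w) ^ (3 ^ (N1 + N2)) = (w ^ (3 ^ (N1 + N2))) ^ 3 - w ^ (3 ^ (N1 + N2)) := by
    rw [sub_pow_char_pow_of_commute 3 _ (Commute.pow_self w 3), ← pow_mul, ← pow_mul, mul_comm]
  rw [← e3, hw3, add_pow_char_pow_of_commute 3 _ (hcomm c0 _),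
    add_pow_char_pow_of_commute 3 _ (((hcomm (β ^ 3) nz).symm).mul_right (hnn.pow_right 3)),
    hN1 _ (Nat.le_add_right _ _), (hcomm (β ^ 3) (ny ^ 3)).mul_pow, ← pow_mul, mul_comm 3, pow_mul,
    hN2 _ (Nat.le_add_left _ _), zero_pow (by norm_num), mul_zero, add_zero, add_zero, ← map_pow]
  have : c0 ^ 3 ^ (N1 + N2) = c1 := hc0
  rw [this]

/-- shifts of powers -/
theorem shift_pow [Nontrivial R] (F : Type*) [Field F] [CharP F 3] [Algebra F R] {g w : R} (h : g * w = (w + 1) * g) (N : ℕ) :
    g * w ^ (3 ^ N) = (w ^ (3 ^ N) + 1) * g := by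
  have hp : Fact (Nat.Prime 3) := ⟨Nat.prime_three⟩
  have hchar : CharP R 3 := charP F R
  have h1 : ∀ k : ℕ, g * w ^ k = (w + 1) ^ k * g := by
    intro k
    induction k with
    | zero => simp
    | succ k ih => rw [pow_succ, ← mul_assoc, ih, mul_assoc, h, pow_succ]; noncomm_ring
  rw [h1, add_pow_char_pow_of_commute 3 _ (Commute.one_right w), one_pow]

end Ring

section Trace

variable {F : Type*} [Field F] {n : Type*} [Fintype n] [DecidableEq n]

/-- Every linear functional on matrices is a trace. -/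
theorem exists_trace (l : Matrix n n F →ₗ[F] F) : ∃ C : Matrix n n F, ∀ M, l M = (M * C).trace := by
  refine ⟨Matrix.of fun i j => l (Matrix.single j i 1), fun M => ?_⟩
  conv_lhs => rw [Matrix.matrix_eq_sum_single M]
  rw [map_sum, Matrix.trace]
  refine Finset.sum_congr rfl fun i _ => ?_
  rw [map_sum, Matrix.diag_apply, Matrix.mul_apply]
  refine Finset.sum_congr rfl fun j _ => ?_
  have : Matrix.single i j (M i j) = M i j • Matrix.single i j (1 : F) := by
    rw [Matrix.smul_single, smul_eq_mul, mul_one]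
  rw [this, map_smul, smul_eq_mul, Matrix.of_apply]

/-- If every matrix commuting with `g` has trace zero then `g` is a commutator `gt - tg`. -/
theorem exists_shift {g : Matrix n n F} (h : ∀ c : Matrix n n F, g * c = c * g → c.trace = 0) :
    ∃ t : Matrix n n F, g * t = (t + 1) * g := by
  let φ : Matrix n n F →ₗ[F] Matrix n n F :=
    LinearMap.mulLeft F g - LinearMap.mulRight F g
  have hφ : ∀ t, φ t = g * t - t * g := fun t => rfl
  by_cases hg : g ∈ LinearMap.range φ
  · obtain ⟨t, ht⟩ := hg
    refine ⟨t, ?_⟩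
    rw [hφ] at ht
    rw [add_mul, one_mul]
    exact (sub_eq_iff_eq_add'.1 ht)
  · exfalso
    obtain ⟨l, hl1, hl2⟩ := Submodule.exists_le_ker_of_notMem hg
    obtain ⟨C, hC⟩ := exists_trace l
    have h1 : ∀ t, ((g * t - t * g) * C).trace = 0 := by
      intro t
      rw [← hφ, ← hC]
      exact hl2 ⟨t, rfl⟩
    have h2 : g * C = C * g := by
      have h3 : C * g - g * C = 0 := by
        apply Matrix.ext_iff_trace_mul_left.2
        intro t
        rw [mul_zero, Matrix.trace_zero]
        have := h1 t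
        rw [sub_mul, Matrix.trace_sub, mul_assoc g t C, Matrix.trace_mul_comm g, mul_assoc t g C,
          mul_assoc t C g] at this
        rw [mul_sub, Matrix.trace_sub]
        exact this
      exact (sub_eq_zero.1 h3).symm
    apply hl1
    rw [hC]
    apply h
    rw [mul_assoc, ← h2]

end Trace

end Cfsg.Agent.H156.Art
end

-- part: H156/Shift
section
set_option autoImplicit false

/-!
# Stabilisers of Artin-Schreier elements, the field `F[X]/(X³-X-c)` (helper156)
-/

namespace Cfsg.Agent.H156.Shift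

open Polynomial Module Cfsg.Agent.H156.Art

section Stab

variable {F : Type*} [Field F] [CharP F 3] {R : Type*} [Ring R] [Algebra F R] {G : Type*} [Group G]

variable (F) in
/-- The elements acting on `t` as a shift. -/
def shiftStab (ρ : G →* R) (t : R) : Subgroup G where
  carrier := {x | ∃ i : F, i ^ 3 = i ∧ ρ x * t = (t + algebraMap F R i) * ρ x}
  mul_mem' {a b} := by
    rintro ⟨i, hi, hi'⟩ ⟨j, hj, hj'⟩
    have hp : Fact (Nat.Prime 3) := ⟨Nat.prime_three⟩
    refine ⟨i + j, by rw [add_pow_char, hi, hj], ?_⟩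
    calc ρ (a * b) * t = ρ a * (ρ b * t) := by rw [map_mul, mul_assoc]
      _ = (ρ a * t + ρ a * algebraMap F R j) * ρ b := by rw [hj']; noncomm_ring
      _ = ((t + algebraMap F R i) * ρ a + algebraMap F R j * ρ a) * ρ b := by
          rw [hi', ← Algebra.commutes j (ρ a)]
      _ = (t + algebraMap F R (i + j)) * ρ (a * b) := by
          rw [map_add, map_mul]; noncomm_ring
  one_mem' := ⟨0, by ring, by simp⟩
  inv_mem' {a} := by
    rintro ⟨i, hi, hi'⟩
    refine ⟨-i, by rw [neg_pow, hi]; ring, ?_⟩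
    have e1 : ρ a * ρ a⁻¹ = 1 := by rw [← map_mul, mul_inv_cancel, map_one]
    have e2 : ρ a⁻¹ * ρ a = 1 := by rw [← map_mul, inv_mul_cancel, map_one]
    have h1 : ρ a⁻¹ * (ρ a * t) * ρ a⁻¹ = ρ a⁻¹ * ((t + algebraMap F R i) * ρ a) * ρ a⁻¹ := by rw [hi']
    have h2 : ρ a⁻¹ * (ρ a * t) * ρ a⁻¹ = t * ρ a⁻¹ := by rw [← mul_assoc, e2, one_mul]
    have h3 : ρ a⁻¹ * ((t + algebraMap F R i) * ρ a) * ρ a⁻¹ =
        ρ a⁻¹ * t + algebraMap F R i * ρ a⁻¹ := by
      rw [mul_assoc (ρ a⁻¹), mul_assoc (t + _), e1, mul_one, mul_add, Algebra.commutes i (ρ a⁻¹)]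
    rw [h2, h3] at h1
    rw [map_neg, add_mul, h1]
    noncomm_ring

theorem mem_shiftStab {ρ : G →* R} {t : R} {x : G} :
    x ∈ shiftStab F ρ t ↔ ∃ i : F, i ^ 3 = i ∧ ρ x * t = (t + algebraMap F R i) * ρ x := Iff.rfl

/-- Conjugation into the stabiliser. -/
theorem conj_mem {ρ : G →* R} {t t0 : R} {g x : G} {i : F} (hi : i ^ 3 = i)
    (hg : ρ g * t = (t + algebraMap F R i) * ρ g) (hx : ρ x * t = t0 * ρ x) :
    x * g * x⁻¹ ∈ shiftStab F ρ t0 := by
  refine ⟨i, hi, ?_⟩
  have e1 : ρ x * ρ x⁻¹ = 1 := by rw [← map_mul, mul_inv_cancel, map_one]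
  have e2 : ρ x⁻¹ * ρ x = 1 := by rw [← map_mul, inv_mul_cancel, map_one]
  have hx' : ρ x⁻¹ * t0 = t * ρ x⁻¹ := by
    have h1 : ρ x⁻¹ * (ρ x * t) * ρ x⁻¹ = ρ x⁻¹ * (t0 * ρ x) * ρ x⁻¹ := by rw [hx]
    rw [← mul_assoc, e2, one_mul, mul_assoc (ρ x⁻¹), mul_assoc t0, e1, mul_one] at h1
    exact h1.symm
  calc ρ (x * g * x⁻¹) * t0 = ρ x * ρ g * (ρ x⁻¹ * t0) := by rw [map_mul, map_mul, mul_assoc]
    _ = ρ x * (ρ g * t) * ρ x⁻¹ := by rw [hx']; noncomm_ring
    _ = (ρ x * t + ρ x * algebraMap F R i) * ρ g * ρ x⁻¹ := by rw [hg]; noncomm_ring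
    _ = (t0 * ρ x + algebraMap F R i * ρ x) * ρ g * ρ x⁻¹ := by
        rw [hx, ← Algebra.commutes i (ρ x)]
    _ = (t0 + algebraMap F R i) * ρ (x * g * x⁻¹) := by
        rw [map_mul, map_mul]; noncomm_ring

end Stab

section Field

variable {F : Type*} [Field F] {R : Type*} [Ring R] [Algebra F R] {c : F}

/-- the polynomial -/
noncomputable abbrev pol (c : F) : F[X] := X ^ 3 - X - C c

theorem pol_ne_zero (c : F) : pol c ≠ 0 := by
  intro h
  have := natDegree_AS c
  rw [show (X ^ 3 - X - C c : F[X]) = pol c from rfl, h] at this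
  simp at this

/-- the representation of the field attached to `t` -/
noncomputable def rep {t : R} (ht : t ^ 3 - t = algebraMap F R c) : AdjoinRoot (pol c) →ₐ[F] R :=
  Ideal.Quotient.liftₐ (Ideal.span {pol c}) (aeval t) (by
    intro a ha
    obtain ⟨b, rfl⟩ := Ideal.mem_span_singleton.1 ha
    rw [map_mul]
    have : aeval t (pol c) = 0 := by
      rw [pol, map_sub, map_sub, map_pow, aeval_X, aeval_C, ht, sub_self]
    rw [this, zero_mul])

theorem rep_mk {t : R} (ht : t ^ 3 - t = algebraMap F R c) (P : F[X]) :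
    rep ht (AdjoinRoot.mk (pol c) P) = aeval t P := rfl

theorem rep_root {t : R} (ht : t ^ 3 - t = algebraMap F R c) :
    rep ht (AdjoinRoot.root (pol c)) = t := by
  rw [AdjoinRoot.root, rep_mk, aeval_X]

/-- the basis `1, θ, θ²` -/
noncomputable def bas (c : F) : Basis (Fin 3) F (AdjoinRoot (pol c)) :=
  (AdjoinRoot.powerBasis (pol_ne_zero c)).basis.reindex (finCongr (natDegree_AS c))

theorem bas_apply (k : Fin 3) : bas c k = AdjoinRoot.root (pol c) ^ (k : ℕ) := by
  rw [bas, Basis.reindex_apply, PowerBasis.coe_basis]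
  rfl

theorem finrank_field (c : F) : finrank F (AdjoinRoot (pol c)) = 3 := by
  rw [Module.finrank_eq_card_basis (bas c), Fintype.card_fin]

end Field

end Cfsg.Agent.H156.Shift
end

-- part: H156/UBase
section
set_option autoImplicit false

/-!
# Isometries of unitary spaces: irreducible ones have odd degree (helper156)
-/

open Cfsg

namespace Cfsg.Agent.H156.UBase

open Cfsg.Agent.LieClassical.HermBasic Polynomial Module

variable {F : Type*} [Field F] [Fintype F] {q n : ℕ}

/-- `P^σ`. -/
noncomputable def bar (hF : Fintype.card F = q ^ 2) (P : F[X]) : F[X] := P.map (conj hF : F →+* F)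

theorem herm_aeval (hF : Fintype.card F = q ^ 2) (x y : Module.End F (Fin n → F))
    (hxy : ∀ u v, hermForm n F q (x u) v = hermForm n F q u (y v)) (P : F[X]) (u v : Fin n → F) :
    hermForm n F q (aeval x P u) v = hermForm n F q u (aeval y (bar hF P) v) := by
  induction P using Polynomial.induction_on' generalizing u v with
  | add P Q hP hQ =>
    have hb : bar hF (P + Q) = bar hF P + bar hF Q := Polynomial.map_add _
    rw [map_add, LinearMap.add_apply, herm_add_left, hP, hQ, hb, map_add,
      LinearMap.add_apply, herm_add_right hF]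
  | monomial k a =>
    have hk : ∀ (k : ℕ) (u v : Fin n → F), hermForm n F q ((x ^ k) u) v = hermForm n F q u ((y ^ k) v) := by
      intro k
      induction k with
      | zero => intro u v; simp
      | succ k ih =>
        intro u v
        rw [pow_succ, Module.End.mul_apply, ih, hxy, pow_succ', Module.End.mul_apply]
    rw [aeval_monomial, bar, Polynomial.map_monomial, aeval_monomial, Module.End.mul_apply,
      Module.End.mul_apply, Module.algebraMap_end_apply, Module.algebraMap_end_apply,
      herm_smul_left, herm_smul_right, hk]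
    rw [RingHom.coe_coe, conj_apply, pow_q_pow_q hF]

omit [Fintype F] in
/-- If `P` is irreducible, kills `u ≠ 0`, and `Q` kills `u`, then `P ∣ Q`. -/
theorem dvd_of_kill {V : Type*} [AddCommGroup V] [Module F V] (x : Module.End F V) {P Q : F[X]}
    (hP : Irreducible P) {u : V} (hu : u ≠ 0) (h1 : aeval x P u = 0) (h2 : aeval x Q u = 0) : P ∣ Q := by
  by_contra hcon
  have hco : IsCoprime P Q := (hP.coprime_iff_not_dvd).2 hcon
  obtain ⟨a, b, hab⟩ := hco
  apply hu
  have := congrArg (fun R => aeval x R u) hab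
  simp only [map_add, map_mul, map_one, LinearMap.add_apply, Module.End.mul_apply, h1, h2, map_zero,
    add_zero, Module.End.one_apply] at this
  exact this.symm

/-- **An irreducible isometry of a unitary space has odd degree.** -/
theorem odd_of_irreducible (hF : Fintype.card F = q ^ 2) (x y : Module.End F (Fin n → F))
    (hxy : ∀ u v, hermForm n F q (x u) v = hermForm n F q u (y v)) (hinv : ∀ u, x (y u) = u)
    (Y : Submodule F (Fin n → F)) (hY : ∀ u ∈ Y, x u ∈ Y) (hY' : ∀ u ∈ Y, y u ∈ Y)
    (hnd : ∀ u ∈ Y, (∀ v ∈ Y, hermForm n F q u v = 0) → u = 0) (hne : Y ≠ ⊥)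
    {P : F[X]} (hP : Irreducible P) (hPY : ∀ u ∈ Y, aeval x P u = 0) : Odd P.natDegree := by
  classical
  have hPF : Fact (Irreducible P) := ⟨hP⟩
  obtain ⟨u0, hu0Y, hu0⟩ := Submodule.exists_mem_ne_zero_of_ne_bot hne
  have hYx : ∀ (Q : F[X]), ∀ u ∈ Y, aeval x Q u ∈ Y := by
    intro Q
    induction Q using Polynomial.induction_on' with
    | add A B hA hB =>
      intro u hu
      rw [map_add, LinearMap.add_apply]
      exact Y.add_mem (hA u hu) (hB u hu)
    | monomial k a =>
      intro u hu
      rw [aeval_monomial, Module.End.mul_apply, Module.algebraMap_end_apply]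
      apply Y.smul_mem
      induction k with
      | zero => simpa using hu
      | succ k ih => rw [pow_succ', Module.End.mul_apply]; exact hY _ ih
  have hYy : ∀ (Q : F[X]), ∀ u ∈ Y, aeval y Q u ∈ Y := by
    intro Q
    induction Q using Polynomial.induction_on' with
    | add A B hA hB =>
      intro u hu
      rw [map_add, LinearMap.add_apply]
      exact Y.add_mem (hA u hu) (hB u hu)
    | monomial k a =>
      intro u hu
      rw [aeval_monomial, Module.End.mul_apply, Module.algebraMap_end_apply]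
      apply Y.smul_mem
      induction k with
      | zero => simpa using hu
      | succ k ih => rw [pow_succ', Module.End.mul_apply]; exact hY' _ ih
  -- `P^σ(y)` kills `Y`
  have hPy : ∀ u ∈ Y, aeval y (bar hF P) u = 0 := by
    intro u hu
    apply hnd _ (hYy _ _ hu)
    intro v hv
    rw [herm_swap hF v, ← herm_aeval hF x y hxy, hPY v hv, herm_zero_left, zero_pow_q hF]
  -- the root is invertible
  have hroot : AdjoinRoot.root P ≠ 0 := by
    intro h
    have h1 : AdjoinRoot.mk P X = 0 := h
    rw [AdjoinRoot.mk_eq_zero] at h1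
    obtain ⟨R, hR⟩ := h1
    have h2 : aeval x (X : F[X]) (y u0) = 0 := by
      rw [hR, mul_comm, map_mul, Module.End.mul_apply, hPY _ (hY' _ hu0Y), map_zero]
    rw [aeval_X, hinv] at h2
    exact hu0 h2
  obtain ⟨b, hb⟩ := AdjoinRoot.mk_surjective ((AdjoinRoot.root P)⁻¹)
  have hXb : P ∣ X * b - 1 := by
    rw [← AdjoinRoot.mk_eq_zero, map_sub, map_mul, hb, map_one, AdjoinRoot.mk_X,
      mul_inv_cancel₀ hroot, sub_self]
  -- `b(x)` acts as `y`
  have hyx : ∀ u ∈ Y, aeval x b u = y u := by
    intro u hu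
    obtain ⟨R, hR⟩ := hXb
    have h1 : aeval x (b * X - 1) (y u) = 0 := by
      rw [mul_comm b X, hR, mul_comm, map_mul, Module.End.mul_apply, hPY _ (hY' _ hu), map_zero]
    rw [map_sub, map_mul, map_one, LinearMap.sub_apply, Module.End.mul_apply, aeval_X, hinv,
      Module.End.one_apply, sub_eq_zero] at h1
    exact h1
  have hcomp : ∀ Q : F[X], ∀ u ∈ Y, aeval x (Q.comp b) u = aeval y Q u := by
    intro Q
    induction Q using Polynomial.induction_on' with
    | add A B hA hB =>
      intro u hu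
      rw [add_comp, map_add, map_add, LinearMap.add_apply, LinearMap.add_apply, hA u hu, hB u hu]
    | monomial k a =>
      intro u hu
      rw [monomial_comp, map_mul, map_pow, aeval_monomial, aeval_C, Module.End.mul_apply,
        Module.End.mul_apply, Module.algebraMap_end_apply, Module.algebraMap_end_apply]
      congr 1
      induction k with
      | zero => simp
      | succ k ih =>
        rw [pow_succ', pow_succ', Module.End.mul_apply, Module.End.mul_apply, ih, hyx]
        have hpow : ∀ (j : ℕ), (y ^ j) u ∈ Y := by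
          intro j
          induction j with
          | zero => simpa using hu
          | succ j ihj => rw [pow_succ', Module.End.mul_apply]; exact hY' _ ihj
        exact hpow k
  have hdvd : P ∣ (bar hF P).comp b :=
    dvd_of_kill x hP hu0 (hPY _ hu0Y) (by rw [hcomp _ _ hu0Y, hPy _ hu0Y])
  -- the automorphism
  let i : F →+* AdjoinRoot P := (AdjoinRoot.of P).comp (conj hF : F →+* F)
  have hlift : P.eval₂ i (AdjoinRoot.root P)⁻¹ = 0 := by
    have h1 : AdjoinRoot.mk P ((bar hF P).comp b) = 0 := AdjoinRoot.mk_eq_zero.2 hdvd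
    rw [Polynomial.comp, hom_eval₂, hb, bar, eval₂_map] at h1
    exact h1
  let τ : AdjoinRoot P →+* AdjoinRoot P := AdjoinRoot.lift i (AdjoinRoot.root P)⁻¹ hlift
  have hτof : ∀ c, τ (AdjoinRoot.of P c) = AdjoinRoot.of P (c ^ q) := fun c => AdjoinRoot.lift_of hlift
  have hτroot : τ (AdjoinRoot.root P) = (AdjoinRoot.root P)⁻¹ := AdjoinRoot.lift_root hlift
  have hττ : ∀ a, τ (τ a) = a := by
    have h1 : τ.comp τ = RingHom.id _ := by
      apply AdjoinRoot.ringHom_ext
      · ext c
        simp only [RingHom.comp_apply, RingHom.id_apply, hτof, pow_q_pow_q hF]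
      · simp only [RingHom.comp_apply, RingHom.id_apply, hτroot, map_inv₀, inv_inv]
    intro a
    exact congrFun (congrArg DFunLike.coe h1) a
  have hfin : FiniteDimensional F (AdjoinRoot P) := (AdjoinRoot.powerBasis hP.ne_zero).finite
  have hFin : Finite (AdjoinRoot P) := Module.finite_of_finite F
  -- `Φ a = (τ a) ^ q` is `F`-linear
  obtain ⟨p, k, hp, hchar, hk, hk0⟩ := exists_prime_pow hF
  have hpF : Fact p.Prime := ⟨hp⟩
  have hcharL : CharP (AdjoinRoot P) p := charP_of_injective_algebraMap (algebraMap F (AdjoinRoot P)).injective p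
  let Φ : AdjoinRoot P →ₐ[F] AdjoinRoot P :=
    { (iterateFrobenius (AdjoinRoot P) p k).comp τ with
      commutes' := fun c => by
        show iterateFrobenius (AdjoinRoot P) p k (τ (AdjoinRoot.of P c)) = AdjoinRoot.of P c
        rw [hτof, iterateFrobenius_def, ← hk, ← map_pow, pow_q_pow_q hF] }
  have hΦ : ∀ a, Φ a = (τ a) ^ q := fun a => by
    show iterateFrobenius (AdjoinRoot P) p k (τ a) = _
    rw [iterateFrobenius_def, ← hk]
  have hΦΦ : ∀ a, Φ (Φ a) = a ^ (Fintype.card F) := fun a => by
    rw [hΦ, hΦ, map_pow, hττ, ← pow_mul, hF, sq]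
  obtain ⟨⟨j, hjd⟩, hj⟩ := (FiniteField.bijective_frobeniusAlgHom_pow F (AdjoinRoot P)).2 Φ
  have h2j : (FiniteField.frobeniusAlgHom F (AdjoinRoot P)) ^ (2 * j) =
      (FiniteField.frobeniusAlgHom F (AdjoinRoot P)) ^ 1 := by
    have h3 : Φ ^ 2 = (FiniteField.frobeniusAlgHom F (AdjoinRoot P)) ^ 1 := by
      ext1
      simp only [pow_one, sq]
      show Φ (Φ (AdjoinRoot.root P)) = _
      rw [hΦΦ]; rfl
    rw [← h3, ← hj, ← pow_mul, mul_comm]
  have hord := FiniteField.orderOf_frobeniusAlgHom F (AdjoinRoot P)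
  have hrk : finrank F (AdjoinRoot P) = P.natDegree := finrank_quotient_span_eq_natDegree
  have hd0 : 0 < finrank F (AdjoinRoot P) := Module.finrank_pos
  have hmod : (2 * j) % finrank F (AdjoinRoot P) = 1 % finrank F (AdjoinRoot P) := by
    have h3 := (FiniteField.bijective_frobeniusAlgHom_pow F (AdjoinRoot P)).1
      (a₁ := ⟨(2 * j) % finrank F (AdjoinRoot P), Nat.mod_lt _ hd0⟩)
      (a₂ := ⟨1 % finrank F (AdjoinRoot P), Nat.mod_lt _ hd0⟩) (by
        show (FiniteField.frobeniusAlgHom F (AdjoinRoot P)) ^ ((2 * j) % finrank F (AdjoinRoot P)) =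
          (FiniteField.frobeniusAlgHom F (AdjoinRoot P)) ^ (1 % finrank F (AdjoinRoot P))
        rw [← hord, pow_mod_orderOf, pow_mod_orderOf, h2j])
    exact congrArg Fin.val h3
  rw [hrk] at hmod hd0
  by_contra hodd
  rw [Nat.not_odd_iff_even] at hodd
  obtain ⟨e, he⟩ := hodd
  have h4 : 1 % P.natDegree = 1 := Nat.mod_eq_of_lt (by omega)
  rw [h4] at hmod
  have h5 : P.natDegree ∣ 2 * j - (2 * j) % P.natDegree := Nat.dvd_sub_mod _
  obtain ⟨c, hc⟩ := h5
  rw [he] at hc
  have h6 : (e + e) * c = 2 * (e * c) := by ring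
  have h7 : (2 * j) % (e + e) = 1 := by rw [← he]; exact hmod
  have h8 := Nat.mod_le (2 * j) (e + e)
  omega

end Cfsg.Agent.H156.UBase
end

-- part: H156/UPerp
section
set_option autoImplicit false

/-!
# Orthogonal complements in unitary spaces, invariant subspaces of isometries (helper156)
-/

open Cfsg

namespace Cfsg.Agent.H156.UPerp

open Cfsg.Agent.LieClassical.HermBasic Cfsg.Agent.LieClassical.HermSiegel Polynomial Module
  Cfsg.Agent.H156.UBase

variable {F : Type*} [Field F] [Fintype F] {q n : ℕ}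

omit [Fintype F] in
/-- The orthogonal complement. -/
def perp (q : ℕ) (Y : Submodule F (Fin n → F)) : Submodule F (Fin n → F) where
  carrier := {u | ∀ w ∈ Y, hermForm n F q u w = 0}
  add_mem' {a b} ha hb w hw := by rw [herm_add_left, ha w hw, hb w hw, add_zero]
  zero_mem' w _ := herm_zero_left w
  smul_mem' c a ha w hw := by rw [herm_smul_left, ha w hw, mul_zero]

omit [Fintype F] in
theorem mem_perp {Y : Submodule F (Fin n → F)} {u : Fin n → F} :
    u ∈ perp q Y ↔ ∀ w ∈ Y, hermForm n F q u w = 0 := Iff.rfl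

theorem finrank_perp (hF : Fintype.card F = q ^ 2) (Y : Submodule F (Fin n → F)) :
    finrank F Y + finrank F (perp q Y) = n := by
  classical
  let b := Module.finBasis F Y
  let e : Fin (finrank F Y) → (Fin n → F) := fun i => (b i : Fin n → F)
  have he : LinearIndependent F e := b.linearIndependent.map' Y.subtype (Submodule.ker_subtype Y)
  obtain ⟨f, hf⟩ := Cfsg.Agent.ClassicalGeometry.HermFrame.exists_dual hF he
  let T : (Fin n → F) →ₗ[F] (Fin (finrank F Y) → F) :=
    LinearMap.pi fun i => Cfsg.Agent.ClassicalGeometry.HermFrame.leftFun q (e i)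
  have hT : ∀ u i, T u i = hermForm n F q u (e i) := fun u i => rfl
  have hsurj : Function.Surjective T := by
    intro c
    refine ⟨∑ j, c j • f j, ?_⟩
    funext i
    rw [hT, herm_sum_left, Finset.sum_eq_single i]
    · rw [herm_smul_left, herm_swap hF (e i), hf, if_pos rfl, one_pow, mul_one]
    · intro j _ hj
      rw [herm_smul_left, herm_swap hF (e i), hf, if_neg (Ne.symm hj), zero_pow_q hF, mul_zero]
    · simp
  have hker : LinearMap.ker T = perp q Y := by
    ext u
    rw [LinearMap.mem_ker, mem_perp]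
    constructor
    · intro h w hw
      have h1 : w = ∑ i, b.repr ⟨w, hw⟩ i • e i := by
        have h2 := b.sum_repr ⟨w, hw⟩
        have h3 : ((∑ i, b.repr ⟨w, hw⟩ i • b i : Y) : Fin n → F) = w := congrArg Subtype.val h2
        rw [Submodule.coe_sum] at h3
        exact h3.symm
      rw [h1, herm_sum_right hF]
      refine Finset.sum_eq_zero fun i _ => ?_
      have h4 := congrFun h i
      rw [hT, Pi.zero_apply] at h4
      rw [herm_smul_right, h4, mul_zero]
    · intro h
      funext i
      rw [hT]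
      exact h _ (b i).2
  have h1 := LinearMap.finrank_range_add_finrank_ker T
  rw [LinearMap.range_eq_top.2 hsurj, finrank_top, hker, Module.finrank_fin_fun,
    Module.finrank_fin_fun] at h1
  exact h1

/-- Nondegenerate subspace. -/
def Nd (q : ℕ) (Y : Submodule F (Fin n → F)) : Prop :=
  ∀ u ∈ Y, (∀ v ∈ Y, hermForm n F q u v = 0) → u = 0

theorem perp_perp (hF : Fintype.card F = q ^ 2) (Y : Submodule F (Fin n → F)) :
    perp q (perp q Y) = Y := by
  have h1 := finrank_perp hF Y
  have h2 := finrank_perp hF (perp q Y)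
  symm
  apply Submodule.eq_of_le_of_finrank_eq
  · intro u hu w hw
    rw [herm_swap hF w u, hw u hu, zero_pow_q hF]
  · omega

theorem Nd.perp (hF : Fintype.card F = q ^ 2) {Y : Submodule F (Fin n → F)} (h : Nd q Y) :
    Nd q (perp q Y) := by
  intro u hu hv
  have h1 : u ∈ UPerp.perp q (UPerp.perp q Y) := hv
  rw [perp_perp hF] at h1
  exact h u h1 (fun v hv' => hu v hv')

/-- Invariance under an element of the unitary group. -/
def Inv (g : SU n F q) (Y : Submodule F (Fin n → F)) : Prop := ∀ u ∈ Y, act g u ∈ Y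

/-- `act g` as a linear map. -/
def lin (g : SU n F q) : Module.End F (Fin n → F) := Matrix.mulVecLin (mat g)

omit [Fintype F] in
theorem lin_apply (g : SU n F q) (u : Fin n → F) : lin g u = act g u := rfl

omit [Fintype F] in
theorem Inv.inv {g : SU n F q} {Y : Submodule F (Fin n → F)} (h : Inv g Y) : Inv g⁻¹ Y := by
  have h1 : Y.map (lin g) = Y := by
    apply Submodule.eq_of_le_of_finrank_eq
    · rintro _ ⟨u, hu, rfl⟩
      exact h u hu
    · exact (Submodule.equivMapOfInjective (lin g) (act_injective g) Y).finrank_eq.symm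
  intro u hu
  rw [← h1] at hu
  obtain ⟨w, hw, rfl⟩ := hu
  rw [lin_apply, act_inv_act]
  exact hw

omit [Fintype F] in
theorem Inv.perp {g : SU n F q} {Y : Submodule F (Fin n → F)}
    (h : Inv g Y) : Inv g (perp q Y) := by
  intro u hu w hw
  rw [herm_act_left]
  exact hu _ (h.inv w hw)

/-- A nondegenerate invariant subspace of even dimension is not irreducible. -/
theorem not_irreducible (hF : Fintype.card F = q ^ 2) {g : SU n F q} {Y : Submodule F (Fin n → F)}
    (hne : Y ≠ ⊥) (hInv : Inv g Y) (hnd : Nd q Y) {P : F[X]} (hP : Irreducible P)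
    (hPY : ∀ u ∈ Y, aeval (lin g) P u = 0) : Odd P.natDegree :=
  odd_of_irreducible hF (lin g) (lin g⁻¹) (fun u v => herm_act_left g u v) (fun u => act_act_inv g u)
    Y hInv hInv.inv hnd hne hP hPY

/-- An isometry has an eigenvector on every nondegenerate invariant plane. -/
theorem exists_eigen_plane (hF : Fintype.card F = q ^ 2) {g : SU n F q} {Y : Submodule F (Fin n → F)}
    (h2 : finrank F Y = 2) (hInv : Inv g Y) (hnd : Nd q Y) :
    ∃ v ∈ Y, v ≠ 0 ∧ ∃ c : F, act g v = c • v := by
  let x : Module.End F Y := (lin g).restrict hInv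
  have hx : ∀ u : Y, (x u : Fin n → F) = act g u := fun u => rfl
  have hdeg : x.charpoly.natDegree = 2 := by rw [LinearMap.charpoly_natDegree, h2]
  by_cases hroot : ∃ c, x.charpoly.IsRoot c
  · obtain ⟨c, hc⟩ := hroot
    rw [← Module.End.hasEigenvalue_iff_isRoot_charpoly] at hc
    obtain ⟨v, hv⟩ := hc.exists_hasEigenvector
    refine ⟨v, v.2, fun h => hv.2 (Subtype.ext h), c, ?_⟩
    rw [← hx, hv.apply_eq_smul]
    rfl
  · exfalso
    push Not at hroot
    have hirr : Irreducible x.charpoly := by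
      apply Polynomial.irreducible_of_degree_le_three_of_not_isRoot
      · rw [hdeg]; simp
      · exact hroot
    have hne : Y ≠ ⊥ := by
      rintro rfl
      rw [finrank_bot] at h2
      omega
    have hodd := not_irreducible hF hne hInv hnd hirr (by
      intro u hu
      have h3 : ∀ Q : F[X], ∀ u : Y, ((aeval x Q u : Y) : Fin n → F) = aeval (lin g) Q (u : Fin n → F) := by
        intro Q u
        induction Q using Polynomial.induction_on' with
        | add A B hA hB => simp only [map_add, LinearMap.add_apply, Submodule.coe_add, hA, hB]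
        | monomial k a =>
          simp only [aeval_monomial, Module.End.mul_apply, Module.algebraMap_end_apply,
            Submodule.coe_smul]
          congr 1
          induction k generalizing u with
          | zero => rfl
          | succ k ih => rw [pow_succ, pow_succ, Module.End.mul_apply, Module.End.mul_apply, ih]; rfl
      have h4 := h3 x.charpoly ⟨u, hu⟩
      rw [LinearMap.aeval_self_charpoly] at h4
      exact h4.symm)
    rw [hdeg] at hodd
    exact absurd hodd (by decide)

end Cfsg.Agent.H156.UPerp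
end

-- part: H156/UFour
section
set_option autoImplicit false

/-!
# Elements of `SU₄(q)`: a nonsingular eigenvector or an invariant totally singular plane (helper156)
-/

open Cfsg

namespace Cfsg.Agent.H156.UFour

open Cfsg.Agent.LieClassical.HermBasic Cfsg.Agent.LieClassical.HermSiegel Polynomial Module
  Cfsg.Agent.H156.UBase Cfsg.Agent.H156.UPerp

variable {F : Type*} [Field F] [Fintype F] {q : ℕ}

omit [Fintype F] in
/-- The span of two vectors -/
theorem finrank_pair {n : ℕ} {v w : Fin n → F} (h : LinearIndependent F ![v, w]) :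
    finrank F (Submodule.span F {v, w}) = 2 := by
  have h1 := finrank_span_eq_card h
  rw [Matrix.range_cons_cons_empty] at h1
  simpa using h1

/-- two independent orthogonal singular eigenvectors give a totally singular invariant plane -/
theorem plane_of_pair (hF : Fintype.card F = q ^ 2) {n : ℕ} {g : SU n F q} {v w : Fin n → F}
    (h : LinearIndependent F ![v, w]) (hv : hermForm n F q v v = 0) (hw : hermForm n F q w w = 0)
    (hvw : hermForm n F q v w = 0) {c d : F} (hc : act g v = c • v) (hd : act g w = d • w) :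
    ∃ W : Submodule F (Fin n → F), finrank F W = 2 ∧ (∀ a ∈ W, ∀ b ∈ W, hermForm n F q a b = 0) ∧
      Inv g W := by
  have hwv := herm_eq_zero_swap hF hvw
  refine ⟨Submodule.span F {v, w}, finrank_pair h, ?_, ?_⟩
  · intro a ha b hb
    obtain ⟨a1, a2, rfl⟩ := Submodule.mem_span_pair.1 ha
    obtain ⟨b1, b2, rfl⟩ := Submodule.mem_span_pair.1 hb
    simp only [herm_add_left, herm_add_right hF, herm_smul_left, herm_smul_right, hv, hw, hvw, hwv]
    ring
  · intro a ha
    obtain ⟨a1, a2, rfl⟩ := Submodule.mem_span_pair.1 ha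
    rw [act_add, act_smul, act_smul, hc, hd]
    exact Submodule.add_mem _ (Submodule.smul_mem _ _ (Submodule.smul_mem _ _
      (Submodule.subset_span (by simp)))) (Submodule.smul_mem _ _ (Submodule.smul_mem _ _
      (Submodule.subset_span (by simp))))

theorem class4 (hF : Fintype.card F = q ^ 2) (g : SU 4 F q) :
    (∃ v : Fin 4 → F, hermForm 4 F q v v ≠ 0 ∧ ∃ c : F, act g v = c • v) ∨
    (∃ W : Submodule F (Fin 4 → F), finrank F W = 2 ∧
      (∀ a ∈ W, ∀ b ∈ W, hermForm 4 F q a b = 0) ∧ Inv g W) := by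
  classical
  by_contra hcon
  push Not at hcon
  obtain ⟨hN, hT⟩ := hcon
  -- eigenvectors are singular
  have hsing : ∀ v : Fin 4 → F, (∃ c : F, act g v = c • v) → hermForm 4 F q v v = 0 := by
    rintro v ⟨c, hc⟩
    by_contra h
    exact hN v h c hc
  -- independent eigenvectors are not orthogonal
  have hpair : ∀ v w : Fin 4 → F, (∃ c : F, act g v = c • v) → (∃ c : F, act g w = c • w) →
      LinearIndependent F ![v, w] → hermForm 4 F q v w ≠ 0 := by
    rintro v w ⟨c, hc⟩ ⟨d, hd⟩ hli h
    obtain ⟨W, h1, h2, h3⟩ := plane_of_pair hF hli (hsing v ⟨c, hc⟩) (hsing w ⟨d, hd⟩) h hc hd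
    exact hT W h1 h2 h3
  -- one-dimensional invariant subspaces
  have hone : ∀ Y : Submodule F (Fin 4 → F), finrank F Y = 1 → Inv g Y →
      ∃ v ∈ Y, v ≠ 0 ∧ ∃ c : F, act g v = c • v := by
    intro Y hY hI
    obtain ⟨v, hv0, hv⟩ := finrank_eq_one_iff'.1 hY
    refine ⟨v, v.2, fun h => hv0 (Subtype.ext h), ?_⟩
    obtain ⟨c, hc⟩ := hv ⟨act g v, hI v v.2⟩
    exact ⟨c, (congrArg Subtype.val hc).symm⟩
  -- no nondegenerate invariant line
  have hline : ∀ Y : Submodule F (Fin 4 → F), finrank F Y = 1 → Inv g Y → ¬ Nd q Y := by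
    intro Y hY hI hnd
    obtain ⟨v, hvY, hv0, c, hc⟩ := hone Y hY hI
    apply hv0
    apply hnd v hvY
    intro w hw
    obtain ⟨d, hd⟩ := (finrank_eq_one_iff_of_nonzero' (⟨v, hvY⟩ : Y) (fun h => hv0 (congrArg Subtype.val h))).1
      hY ⟨w, hw⟩
    have hd' : d • v = w := congrArg Subtype.val hd
    rw [← hd', herm_smul_right, hsing v ⟨c, hc⟩, mul_zero]
  -- a nondegenerate invariant plane orthogonal to an eigenvector
  have hplane : ∀ (v : Fin 4 → F), v ≠ 0 → (∃ c : F, act g v = c • v) → ∀ Y : Submodule F (Fin 4 → F),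
      finrank F Y = 2 → Inv g Y → Nd q Y → (∀ w ∈ Y, hermForm 4 F q v w = 0) → False := by
    intro v hv0 hvc Y hY hI hnd hperp
    obtain ⟨w, hwY, hw0, hwc⟩ := exists_eigen_plane hF hY hI hnd
    apply hpair v w hvc hwc _ (hperp w hwY)
    rw [LinearIndependent.pair_iff' hv0]
    intro a ha
    apply hw0
    apply hnd w hwY
    intro u hu
    rw [← ha, herm_smul_left, hperp u hu, mul_zero]
  -- Step 1: there is an eigenvector
  have hex : ∃ v : Fin 4 → F, v ≠ 0 ∧ ∃ c : F, act g v = c • v := by
    by_contra hno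
    push Not at hno
    have hmp : minpoly F (lin g) ≠ 0 := minpoly.ne_zero (Algebra.IsIntegral.isIntegral _)
    obtain ⟨f, hf, hfm⟩ := WfDvdMonoid.exists_irreducible_factor
      (minpoly.not_isUnit F (lin g)) hmp
    have hroot : ∀ c, ¬ (LinearMap.charpoly (lin g)).IsRoot c := by
      intro c hc
      rw [← Module.End.hasEigenvalue_iff_isRoot_charpoly] at hc
      obtain ⟨v, hv⟩ := hc.exists_hasEigenvector
      exact hno v hv.2 c hv.apply_eq_smul
    have hdeg : (LinearMap.charpoly (lin g)).natDegree = 4 := by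
      rw [LinearMap.charpoly_natDegree, Module.finrank_fin_fun]
    have hne : LinearMap.charpoly (lin g) ≠ 0 := (LinearMap.charpoly_monic _).ne_zero
    have hlin : ∀ h : F[X], h ∣ LinearMap.charpoly (lin g) → h.natDegree ≠ 1 := by
      intro h hh h1
      have h0 : h ≠ 0 := by
        rintro rfl
        simp at h1
      have hd1 : h.degree = 1 := by
        rw [Polynomial.degree_eq_natDegree h0, h1]; rfl
      obtain ⟨c, hc⟩ := Polynomial.exists_root_of_degree_eq_one hd1
      exact hroot c (hc.dvd hh)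
    have hfc : f ∣ LinearMap.charpoly (lin g) := hfm.trans (LinearMap.minpoly_dvd_charpoly _)
    obtain ⟨h, hh⟩ := hfc
    have hh0 : h ≠ 0 := by
      rintro rfl
      rw [mul_zero] at hh
      exact hne hh
    have hsum : f.natDegree + h.natDegree = 4 := by
      rw [← Polynomial.natDegree_mul hf.ne_zero hh0, ← hh, hdeg]
    have hf1 : f.natDegree ≠ 1 := hlin f ⟨h, hh⟩
    have hh1 : h.natDegree ≠ 1 := hlin h ⟨f, by rw [hh, mul_comm]⟩
    have hf0 : 0 < f.natDegree := hf.natDegree_pos
    have htop : (⊤ : Submodule F (Fin 4 → F)) ≠ ⊥ := top_ne_bot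
    have htopnd : Nd q (⊤ : Submodule F (Fin 4 → F)) := fun u _ hu =>
      herm_nondeg hF (fun v => hu v trivial)
    have htopI : Inv g (⊤ : Submodule F (Fin 4 → F)) := fun u _ => trivial
    have hcases : f.natDegree = 2 ∨ f.natDegree = 4 := by omega
    rcases hcases with hf2 | hf4
    · -- a vector killed by `f`
      obtain ⟨u0, hu0, hfu0⟩ : ∃ u0 : Fin 4 → F, u0 ≠ 0 ∧ aeval (lin g) f u0 = 0 := by
        by_contra hinj
        push Not at hinj
        obtain ⟨m, hm⟩ := hfm
        have hm0 : m ≠ 0 := by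
          rintro rfl
          rw [mul_zero] at hm
          exact hmp hm
        have hm1 : aeval (lin g) m = 0 := by
          ext1 i
          ext1
          by_contra h3
          apply hinj _ h3
          have h4 : aeval (lin g) (f * m) = 0 := by rw [← hm]; exact minpoly.aeval _ _
          rw [map_mul] at h4
          exact LinearMap.congr_fun h4 _
        have h5 := minpoly.dvd F (lin g) hm1
        have h6 := Polynomial.natDegree_le_of_dvd h5 hm0
        rw [hm, Polynomial.natDegree_mul hf.ne_zero hm0] at h6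
        omega
      have hli : LinearIndependent F ![u0, act g u0] := by
        rw [LinearIndependent.pair_iff' hu0]
        intro a ha
        exact hno u0 hu0 a ha.symm
      set Y := Submodule.span F {u0, act g u0} with hYdef
      have hY2 : finrank F Y = 2 := finrank_pair hli
      have hYI : Inv g Y := by
        intro a ha
        obtain ⟨a1, a2, rfl⟩ := Submodule.mem_span_pair.1 ha
        rw [act_add, act_smul, act_smul]
        -- `g² u0` is in the span
        have hsq : act g (act g u0) ∈ Y := by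
          have h3 : f = C (f.coeff 0) + C (f.coeff 1) * X + C (f.coeff 2) * X ^ 2 := by
            have := Polynomial.as_sum_range_C_mul_X_pow f
            rw [hf2, Finset.sum_range_succ, Finset.sum_range_succ, Finset.sum_range_one] at this
            simpa using this
          have hc2 : f.coeff 2 ≠ 0 := by
            have : f.leadingCoeff ≠ 0 := Polynomial.leadingCoeff_ne_zero.2 hf.ne_zero
            rwa [Polynomial.leadingCoeff, hf2] at this
          have h4 := hfu0
          rw [h3] at h4
          simp only [map_add, map_mul, aeval_C, map_pow, aeval_X, LinearMap.add_apply,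
            Module.End.mul_apply, Module.algebraMap_end_apply, sq] at h4
          have h5 : act g (act g u0) = (-(f.coeff 2)⁻¹ * f.coeff 0) • u0 +
              (-(f.coeff 2)⁻¹ * f.coeff 1) • act g u0 := by
            have h6 : f.coeff 2 • act g (act g u0) = - (f.coeff 0 • u0 + f.coeff 1 • act g u0) :=
              (neg_eq_of_add_eq_zero_right h4).symm
            have h7 := congrArg (fun z => (f.coeff 2)⁻¹ • z) h6
            simp only [smul_smul, inv_mul_cancel₀ hc2, one_smul, smul_neg, smul_add] at h7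
            rw [h7, neg_mul, neg_mul, neg_smul, neg_smul]
            abel
          rw [h5]
          exact Submodule.add_mem _ (Submodule.smul_mem _ _ (Submodule.subset_span (by simp)))
            (Submodule.smul_mem _ _ (Submodule.subset_span (by simp)))
        exact Submodule.add_mem _ (Submodule.smul_mem _ _ (Submodule.subset_span (by simp)))
          (Submodule.smul_mem _ _ hsq)
      -- the radical
      have hRI : Inv g (Y ⊓ perp q Y) := fun u hu => ⟨hYI u hu.1, hYI.perp u hu.2⟩
      have hRle : finrank F (Y ⊓ perp q Y : Submodule F (Fin 4 → F)) ≤ 2 := by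
        rw [← hY2]; exact Submodule.finrank_mono inf_le_left
      have hR : finrank F (Y ⊓ perp q Y : Submodule F (Fin 4 → F)) = 0 ∨
          finrank F (Y ⊓ perp q Y : Submodule F (Fin 4 → F)) = 1 ∨
          finrank F (Y ⊓ perp q Y : Submodule F (Fin 4 → F)) = 2 := by omega
      rcases hR with hR | hR | hR
      · have hnd : Nd q Y := by
          intro u hu hv
          rw [Submodule.finrank_eq_zero] at hR
          have : u ∈ (Y ⊓ perp q Y : Submodule F (Fin 4 → F)) := ⟨hu, hv⟩
          rwa [hR, Submodule.mem_bot] at this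
        obtain ⟨v, _, hv0, c, hc⟩ := exists_eigen_plane hF hY2 hYI hnd
        exact hno v hv0 c hc
      · obtain ⟨v, _, hv0, c, hc⟩ := hone _ hR hRI
        exact hno v hv0 c hc
      · have hle : Y ≤ perp q Y := by
          have h3 : (Y ⊓ perp q Y : Submodule F (Fin 4 → F)) = Y :=
            Submodule.eq_of_le_of_finrank_eq inf_le_left (by rw [hR, hY2])
          exact inf_eq_left.1 h3
        exact hT Y hY2 (fun a ha b hb => hle ha b hb) hYI
    · -- irreducible
      have hhu : IsUnit h := by
        rw [Polynomial.isUnit_iff_degree_eq_zero, Polynomial.degree_eq_natDegree hh0]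
        have : h.natDegree = 0 := by omega
        rw [this]; rfl
      have hodd := not_irreducible hF htop htopI htopnd hf (by
        intro u _
        obtain ⟨r, hr⟩ := hhu.exists_left_inv
        have h3 : f = LinearMap.charpoly (lin g) * r := by
          rw [hh, mul_assoc, mul_comm h r, hr, mul_one]
        rw [h3, map_mul, LinearMap.aeval_self_charpoly, zero_mul, LinearMap.zero_apply])
      rw [hf4] at hodd
      exact absurd hodd (by decide)
  obtain ⟨v, hv0, l, hl⟩ := hex
  have hvv := hsing v ⟨l, hl⟩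
  have hl0 : l ≠ 0 := by
    rintro rfl
    rw [zero_smul, act_eq_zero] at hl
    exact hv0 hl
  have hlinv : act g⁻¹ v = l⁻¹ • v := by
    have h1 := congrArg (act g⁻¹) hl
    rw [act_inv_act, act_smul] at h1
    have h2 := congrArg (fun z => l⁻¹ • z) h1
    simp only [smul_smul, inv_mul_cancel₀ hl0, one_smul] at h2
    exact h2.symm
  by_cases hnorm : l * l ^ q = 1
  · -- Case B
    let N : Module.End F (Fin 4 → F) := lin g - algebraMap F _ l
    let M : Module.End F (Fin 4 → F) := lin g⁻¹ - algebraMap F _ (l ^ q)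
    have hNapp : ∀ u, N u = act g u - l • u := fun u => by
      show lin g u - algebraMap F (Module.End F (Fin 4 → F)) l u = _
      rw [Module.algebraMap_end_apply, lin_apply]
    have hMapp : ∀ u, M u = act g⁻¹ u - l ^ q • u := fun u => by
      show lin g⁻¹ u - algebraMap F (Module.End F (Fin 4 → F)) (l ^ q) u = _
      rw [Module.algebraMap_end_apply, lin_apply]
    have hadj : ∀ u w, hermForm 4 F q (N u) w = hermForm 4 F q u (M w) := fun u w => by
      rw [hNapp, hMapp, herm_sub_left, herm_sub_right hF, herm_smul_left, herm_smul_right,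
        pow_q_pow_q hF, herm_act_left]
    have hadjk : ∀ (k : ℕ) (u w), hermForm 4 F q ((N ^ k) u) w = hermForm 4 F q u ((M ^ k) w) := by
      intro k
      induction k with
      | zero => intro u w; simp
      | succ k ih =>
        intro u w
        rw [pow_succ, Module.End.mul_apply, ih, hadj, pow_succ', Module.End.mul_apply]
    -- `M = -l^q g⁻¹ N`
    have hMN : ∀ u, M u = (- l ^ q) • act g⁻¹ (N u) := fun u => by
      rw [hMapp, hNapp, act_sub, act_inv_act, act_smul, smul_sub, smul_smul, neg_smul, neg_mul,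
        mul_comm (l ^ q) l, hnorm, neg_smul, one_smul]
      abel
    have hcomm : ∀ u, N (act g⁻¹ u) = act g⁻¹ (N u) := fun u => by
      rw [hNapp, hNapp, act_sub, act_act_inv, act_inv_act, act_smul]
    have hMk : ∀ (k : ℕ) (u), (N ^ k) u = 0 → (M ^ k) u = 0 := by
      have hcommk : ∀ (k : ℕ) u, (N ^ k) (act g⁻¹ u) = act g⁻¹ ((N ^ k) u) := by
        intro k
        induction k with
        | zero => intro u; simp
        | succ k ih => intro u; rw [pow_succ', Module.End.mul_apply, ih, hcomm, Module.End.mul_apply]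
      intro k
      induction k with
      | zero => intro u h; simpa using h
      | succ k ih =>
        intro u h
        rw [pow_succ, Module.End.mul_apply]
        apply ih
        rw [hMN, map_smul, hcommk]
        rw [pow_succ, Module.End.mul_apply] at h
        rw [h, act_zero, smul_zero]
    set K := LinearMap.ker (N ^ 4) with hK
    set R := LinearMap.range (N ^ 4) with hR
    have hKR : ∀ k ∈ K, ∀ r ∈ R, hermForm 4 F q r k = 0 := by
      rintro k hk _ ⟨z, rfl⟩
      rw [hadjk, hMk 4 k (LinearMap.mem_ker.1 hk), herm_zero_right hF]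
    have hinf : K ⊓ R = ⊥ := by
      rw [Submodule.eq_bot_iff]
      rintro z ⟨hz, y, rfl⟩
      have h1 : (N ^ (4 + 4)) y = 0 := by
        rw [pow_add, Module.End.mul_apply]; exact hz
      have h2 : LinearMap.ker (N ^ (4 + 4)) = LinearMap.ker (N ^ finrank F (Fin 4 → F)) :=
        Module.End.ker_pow_eq_ker_pow_finrank_of_le (by rw [Module.finrank_fin_fun]; omega)
      rw [Module.finrank_fin_fun] at h2
      have h3 : y ∈ LinearMap.ker (N ^ (4 + 4)) := h1
      rw [h2] at h3
      exact h3
    have hrn : finrank F R + finrank F K = 4 := by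
      have := LinearMap.finrank_range_add_finrank_ker (N ^ 4)
      rw [Module.finrank_fin_fun] at this
      exact this
    have hsup : K ⊔ R = ⊤ := by
      apply Submodule.eq_top_of_finrank_eq
      have h1 := Submodule.finrank_sup_add_finrank_inf_eq K R
      rw [hinf, finrank_bot] at h1
      rw [Module.finrank_fin_fun]
      omega
    have hKnd : Nd q K := by
      intro u hu hv
      apply herm_nondeg hF
      intro w
      have hw : w ∈ K ⊔ R := by rw [hsup]; trivial
      obtain ⟨a, ha, b, hb, rfl⟩ := Submodule.mem_sup.1 hw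
      rw [herm_add_right hF, hv a ha, herm_swap hF b u, hKR u hu b hb, zero_pow_q hF, add_zero]
    have hKI : Inv g K := by
      intro u hu
      have hcg : ∀ (k : ℕ) u, (N ^ k) (act g u) = act g ((N ^ k) u) := by
        intro k
        induction k with
        | zero => intro u; simp
        | succ k ih =>
          intro u
          rw [pow_succ', Module.End.mul_apply, ih, Module.End.mul_apply, hNapp, hNapp, act_sub, act_smul]
      rw [hK, LinearMap.mem_ker, hcg, LinearMap.mem_ker.1 hu, act_zero]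
    have hNv : N v = 0 := by rw [hNapp, hl, sub_self]
    have hvK : v ∈ K := by
      rw [hK, LinearMap.mem_ker, pow_succ, Module.End.mul_apply, hNv, map_zero]
    have hperp := finrank_perp hF K
    have hpI : Inv g (perp q K) := hKI.perp
    have hpnd : Nd q (perp q K) := hKnd.perp hF
    have hKpos : finrank F K ≠ 0 := by
      intro h
      rw [Submodule.finrank_eq_zero] at h
      rw [h, Submodule.mem_bot] at hvK
      exact hv0 hvK
    have hcases : finrank F K = 1 ∨ finrank F K = 2 ∨ finrank F K = 3 ∨ finrank F K = 4 := by omega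
    rcases hcases with h | h | h | h
    · exact hline K h hKI hKnd
    · refine hplane v hv0 ⟨l, hl⟩ (perp q K) (by omega) hpI hpnd (fun w hw => ?_)
      exact herm_eq_zero_swap hF (hw v hvK)
    · exact hline (perp q K) (by omega) hpI hpnd
    · -- unipotent case
      have hKtop : K = ⊤ := Submodule.eq_top_of_finrank_eq (by rw [h, Module.finrank_fin_fun])
      have hN4 : ∀ u, (N ^ 4) u = 0 := fun u => by
        have : u ∈ K := by rw [hKtop]; trivial
        exact this
      -- the kernel of `N` is a line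
      have hker1 : finrank F (LinearMap.ker N) ≤ 1 := by
        by_contra h2
        push Not at h2
        obtain ⟨w, hw, hwv⟩ : ∃ w ∈ LinearMap.ker N, w ∉ Submodule.span F {v} := by
          by_contra hcon
          push Not at hcon
          have hle : LinearMap.ker N ≤ Submodule.span F {v} := hcon
          have := Submodule.finrank_mono hle
          rw [finrank_span_singleton hv0] at this
          omega
        have hgw : act g w = l • w := by
          have h3 : N w = 0 := hw
          rw [hNapp, sub_eq_zero] at h3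
          exact h3
        have hli : LinearIndependent F ![v, w] := by
          rw [LinearIndependent.pair_iff' hv0]
          intro a ha
          exact hwv (Submodule.mem_span_singleton.2 ⟨a, ha⟩)
        have hne := hpair v w ⟨l, hl⟩ ⟨l, hgw⟩ hli
        -- `v + c w` is an eigenvector for every `c`
        have h4 : ∀ c : F, c ^ q * hermForm 4 F q v w + (c ^ q * hermForm 4 F q v w) ^ q = 0 := by
          intro c
          have h5 := hsing (v + c • w) ⟨l, by rw [act_add, act_smul, hl, hgw, smul_add, smul_comm]⟩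
          simp only [herm_add_left, herm_add_right hF, herm_smul_left, herm_smul_right, hvv,
            hsing w ⟨l, hgw⟩, mul_zero, add_zero, zero_add] at h5
          rw [mul_pow, pow_q_pow_q hF, ← herm_swap hF v w]
          linear_combination h5
        apply hne
        apply eq_zero_of_forall_trace hF
        intro c
        have h6 := h4 (c ^ q)
        rwa [pow_q_pow_q hF] at h6
      -- the range of `N²`
      have hker2 : finrank F (LinearMap.ker (N ^ 2)) ≤ 2 := by
        have h3 : finrank F (LinearMap.ker (N ^ 2)) ≤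
            finrank F (LinearMap.ker N) + finrank F (LinearMap.ker N) := by
          let T : LinearMap.ker (N ^ 2) →ₗ[F] LinearMap.ker N :=
            (N.domRestrict _).codRestrict _ (fun u => by
              have h5 : ∀ y : Fin 4 → F, (N ^ 2) y = 0 → N (N y) = 0 := by
                intro y hy
                rw [sq, Module.End.mul_apply] at hy
                exact hy
              exact h5 u.1 u.2)
          have hr := LinearMap.finrank_range_add_finrank_ker T
          have hr1 : finrank F (LinearMap.range T) ≤ finrank F (LinearMap.ker N) :=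
            Submodule.finrank_le _
          have hr2 : finrank F (LinearMap.ker T) ≤ finrank F (LinearMap.ker N) := by
            let S : LinearMap.ker T →ₗ[F] LinearMap.ker N :=
              ((LinearMap.ker (N ^ 2)).subtype ∘ₗ (LinearMap.ker T).subtype).codRestrict _ (fun u => by
                have := u.2
                rw [LinearMap.mem_ker] at this
                exact congrArg Subtype.val this)
            apply LinearMap.finrank_le_finrank_of_injective (f := S)
            intro a b hab
            have h5 := congrArg Subtype.val hab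
            exact Subtype.ext (Subtype.ext h5)
          omega
        omega
      have hrange := LinearMap.finrank_range_add_finrank_ker (N ^ 2)
      rw [Module.finrank_fin_fun] at hrange
      have hts : ∀ a ∈ LinearMap.range (N ^ 2), ∀ b ∈ LinearMap.range (N ^ 2), hermForm 4 F q a b = 0 := by
        rintro _ ⟨a, rfl⟩ _ ⟨b, rfl⟩
        rw [hadjk, hMk 2, herm_zero_right hF]
        rw [← Module.End.mul_apply, ← pow_add]
        exact hN4 b
      have hle2 : finrank F (LinearMap.range (N ^ 2)) ≤ 2 := by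
        have h3 : LinearMap.range (N ^ 2) ≤ perp q (LinearMap.range (N ^ 2)) := fun a ha b hb => hts a ha b hb
        have h4 := Submodule.finrank_mono h3
        have h5 := finrank_perp hF (LinearMap.range (N ^ 2))
        omega
      refine hT (LinearMap.range (N ^ 2)) (by omega) hts ?_
      rintro _ ⟨a, rfl⟩
      refine ⟨act g a, ?_⟩
      simp only [sq, Module.End.mul_apply, hNapp, act_sub, act_smul]
  · -- Case A
    obtain ⟨m, hm⟩ : ∃ m : F, m = (l ^ q)⁻¹ := ⟨_, rfl⟩
    have hmq : m ^ q = l⁻¹ := by rw [hm, inv_pow, pow_q_pow_q hF]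
    obtain ⟨w, hw0, hw⟩ : ∃ w : Fin 4 → F, w ≠ 0 ∧ act g w = m • w := by
      by_contra hcon
      push Not at hcon
      let N : Module.End F (Fin 4 → F) := lin g - algebraMap F _ m
      have hNapp : ∀ u, N u = act g u - m • u := fun u => by
        show lin g u - algebraMap F (Module.End F (Fin 4 → F)) m u = _
        rw [Module.algebraMap_end_apply, lin_apply]
      have hinj : Function.Injective N := by
        rw [injective_iff_map_eq_zero]
        intro u hu
        by_contra hu0
        apply hcon u hu0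
        rw [hNapp, sub_eq_zero] at hu
        exact hu
      have hsurj := LinearMap.injective_iff_surjective.1 hinj
      apply hv0
      apply herm_nondeg hF
      intro z
      obtain ⟨y, rfl⟩ := hsurj z
      rw [hNapp, herm_sub_right hF, herm_smul_right, hmq]
      have h1 : hermForm 4 F q v (act g y) = hermForm 4 F q (act g⁻¹ v) y := by
        rw [herm_act_left, inv_inv]
      rw [h1, hlinv, herm_smul_left, sub_self]
    have hlm : l ≠ m := by
      intro h
      apply hnorm
      rw [← h] at hmq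
      rw [hmq]
      exact mul_inv_cancel₀ hl0
    have hli : LinearIndependent F ![v, w] := by
      rw [LinearIndependent.pair_iff' hv0]
      intro a ha
      have h1 : m • w = l • w := by
        rw [← hw, ← ha, act_smul, hl, smul_comm]
      have h2 : (m - l) • w = 0 := by rw [sub_smul, h1, sub_self]
      rcases smul_eq_zero.1 h2 with h | h
      · exact hlm (sub_eq_zero.1 h).symm
      · exact hw0 h
    have hvw := hpair v w ⟨l, hl⟩ ⟨m, hw⟩ hli
    have hww := hsing w ⟨m, hw⟩
    set Y := Submodule.span F {v, w} with hY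
    have hY2 : finrank F Y = 2 := finrank_pair hli
    have hYI : Inv g Y := by
      intro a ha
      obtain ⟨a1, a2, rfl⟩ := Submodule.mem_span_pair.1 ha
      rw [act_add, act_smul, act_smul, hl, hw]
      exact Submodule.add_mem _ (Submodule.smul_mem _ _ (Submodule.smul_mem _ _
        (Submodule.subset_span (by simp)))) (Submodule.smul_mem _ _ (Submodule.smul_mem _ _
        (Submodule.subset_span (by simp))))
    have hvY : v ∈ Y := Submodule.subset_span (by simp)
    have hwY : w ∈ Y := Submodule.subset_span (by simp)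
    have hYnd : Nd q Y := by
      intro a ha hb
      obtain ⟨a1, a2, rfl⟩ := Submodule.mem_span_pair.1 ha
      have h1 := hb v hvY
      have h2 := hb w hwY
      rw [herm_add_left, herm_smul_left, herm_smul_left, hvv, mul_zero, zero_add] at h1
      rw [herm_add_left, herm_smul_left, herm_smul_left, hww, mul_zero, add_zero] at h2
      have hwv : hermForm 4 F q w v ≠ 0 := fun h => hvw (herm_eq_zero_swap hF h)
      have h3 := (mul_eq_zero.1 h1).resolve_right hwv
      have h4 := (mul_eq_zero.1 h2).resolve_right hvw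
      rw [h3, h4, zero_smul, zero_smul, add_zero]
    have hperp := finrank_perp hF Y
    refine hplane v hv0 ⟨l, hl⟩ (perp q Y) (by omega) hYI.perp (hYnd.perp hF) (fun z hz => ?_)
    exact herm_eq_zero_swap hF (hz v hvY)

end Cfsg.Agent.H156.UFour
end

-- part: H156/UStab
section
set_option autoImplicit false

/-!
# Stabilisers of lines and totally singular planes in `SU`, the covering of `PSU₄` (helper156)
-/

open Cfsg

namespace Cfsg.Agent.H156.UStab

open Cfsg.Agent.LieClassical.HermBasic Cfsg.Agent.LieClassical.HermSiegel Polynomial Module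
  Cfsg.Agent.H156.UBase Cfsg.Agent.H156.UPerp Matrix

variable {F : Type*} [Field F] [Fintype F] {q n : ℕ}

/-- The stabiliser of a subspace. -/
def stab (q : ℕ) (W : Submodule F (Fin n → F)) : Subgroup (SU n F q) where
  carrier := {g | Inv g W}
  mul_mem' {a b} ha hb := by
    intro u hu
    rw [act_mul]
    exact ha _ (hb u hu)
  one_mem' := by
    intro u hu
    rw [act_one]
    exact hu
  inv_mem' {a} ha := ha.inv

omit [Fintype F] in
theorem mem_stab {W : Submodule F (Fin n → F)} {g : SU n F q} : g ∈ stab q W ↔ Inv g W := Iff.rfl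

/-- the centre stabilises everything -/
theorem center_le_stab (hF : Fintype.card F = q ^ 2) (hn : 3 ≤ n) (W : Submodule F (Fin n → F)) :
    Subgroup.center (SU n F q) ≤ stab q W := by
  intro z hz u hu
  obtain ⟨c, _, _, hc⟩ := Cfsg.Agent.ClassicalGeometry.PSUAutBasic.exists_scalar_of_mem_center hF hn hz
  rw [hc]
  exact W.smul_mem c hu

/-- Conjugation into a stabiliser. -/
theorem conj_into {W W' : Submodule F (Fin n → F)}
    {M R : Matrix (Fin n) (Fin n) F}
    (hM : ∀ u v, hermForm n F q (M *ᵥ u) (M *ᵥ v) = hermForm n F q u v)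
    (hMW : ∀ v, M *ᵥ v ∈ W' ↔ v ∈ W)
    (hR : ∀ u v, hermForm n F q (R *ᵥ u) (R *ᵥ v) = hermForm n F q u v)
    (hRW : ∀ v ∈ W', R *ᵥ v ∈ W')
    (hdet : R.det * M.det = 1) {g : SU n F q} (hg : Inv g W) :
    ∃ x : SU n F q, x * g * x⁻¹ ∈ stab q W' := by
  let x : SU n F q := mkSU (R * M) (by rw [det_mul, hdet]) (fun u v => by
    rw [← mulVec_mulVec, ← mulVec_mulVec, hR, hM])
  have hx : ∀ u, act x u = R *ᵥ (M *ᵥ u) := fun u => by
    show (R * M) *ᵥ u = _
    rw [mulVec_mulVec]
  have h1 : W.map (lin x) = W' := by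
    apply Submodule.eq_of_le_of_finrank_eq
    · rintro _ ⟨u, hu, rfl⟩
      rw [lin_apply, hx]
      exact hRW _ ((hMW u).2 hu)
    · have hinj : Function.Injective (M.mulVecLin) := by
        intro a b hab
        have h2 : M *ᵥ a = M *ᵥ b := hab
        have h3 : IsUnit M := by
          rw [Matrix.isUnit_iff_isUnit_det]
          exact IsUnit.of_mul_eq_one_right _ hdet
        exact Matrix.mulVec_injective_iff_isUnit.2 h3 h2
      have h2 : W.map M.mulVecLin = W' := by
        apply le_antisymm
        · rintro _ ⟨u, hu, rfl⟩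
          exact (hMW u).2 hu
        · intro w hw
          have hsurj := LinearMap.injective_iff_surjective.1 hinj
          obtain ⟨u, rfl⟩ := hsurj w
          exact ⟨u, (hMW u).1 hw, rfl⟩
      rw [← (Submodule.equivMapOfInjective (lin x) (act_injective x) W).finrank_eq,
        (Submodule.equivMapOfInjective _ hinj W).finrank_eq, h2]
  refine ⟨x, ?_⟩
  intro u hu
  rw [← h1] at hu ⊢
  obtain ⟨w, hw, rfl⟩ := hu
  rw [act_mul, act_mul, lin_apply, act_inv_act]
  exact ⟨act g w, hg w hw, rfl⟩

omit [Fintype F] in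
/-- The norm-one scalars. -/
theorem norm_of_det {δ : F} (h : δ ^ (q + 1) = 1) : δ * δ ^ q = 1 := by
  rw [← pow_succ']; exact h

/-- `SU` is transitive on nonsingular lines. -/
theorem line_into (hF : Fintype.card F = q ^ 2) (hn : 1 ≤ n) {v w : Fin n → F}
    (hv : hermForm n F q v v ≠ 0) (hw : hermForm n F q w w = 1) {g : SU n F q} {c : F}
    (hg : act g v = c • v) :
    ∃ x : SU n F q, x * g * x⁻¹ ∈ stab q (Submodule.span F {w}) := by
  have hnd : ∀ v : Fin n → F, hermForm n F q v v ≠ 0 → Nd q (Submodule.span F {v}) := by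
    intro v hv u hu h
    obtain ⟨a, rfl⟩ := Submodule.mem_span_singleton.1 hu
    have h1 := h v (Submodule.mem_span_singleton_self v)
    rw [herm_smul_left, mul_eq_zero] at h1
    rw [h1.resolve_right hv, zero_smul]
  have hone : ∀ v : Fin n → F, hermForm n F q v v ≠ 0 → finrank F (Submodule.span F {v}) = 1 := by
    intro v hv
    apply finrank_span_singleton
    rintro rfl
    exact hv (herm_zero_left 0)
  obtain ⟨m, rfl⟩ : ∃ m, n = 1 + m := ⟨n - 1, by omega⟩
  have hw0 : hermForm (1 + m) F q w w ≠ 0 := by rw [hw]; exact one_ne_zero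
  obtain ⟨P, hP, hPx⟩ := Cfsg.Agent.ClassicalGeometry.HermOrtho.exists_GU_adapted hF
    (k := 1) (m := m) finSumFinEquiv (Submodule.span F {v}) (hnd v hv) (hone v hv)
  obtain ⟨P', hP', hPx'⟩ := Cfsg.Agent.ClassicalGeometry.HermOrtho.exists_GU_adapted hF
    (k := 1) (m := m) finSumFinEquiv (Submodule.span F {w}) (hnd w hw0) (hone w hw0)
  let M : Matrix (Fin (1 + m)) (Fin (1 + m)) F := ((P' * P⁻¹ : Matrix.GeneralLinearGroup (Fin (1 + m)) F) :
    Matrix (Fin (1 + m)) (Fin (1 + m)) F)
  have hMmem : (P' * P⁻¹ : Matrix.GeneralLinearGroup (Fin (1 + m)) F) ∈ GU (1 + m) F q :=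
    mul_mem hP' (inv_mem hP)
  have hM : ∀ u v, hermForm (1 + m) F q (M *ᵥ u) (M *ᵥ v) = hermForm (1 + m) F q u v := hMmem
  have hMW : ∀ u, M *ᵥ u ∈ Submodule.span F {w} ↔ u ∈ Submodule.span F {v} := by
    intro u
    have h1 : M *ᵥ u = (P' : Matrix (Fin (1 + m)) (Fin (1 + m)) F) *ᵥ
        (((P⁻¹ : Matrix.GeneralLinearGroup (Fin (1 + m)) F) : Matrix (Fin (1 + m)) (Fin (1 + m)) F) *ᵥ u) := by
      rw [mulVec_mulVec]; rfl
    have h2 : (P : Matrix (Fin (1 + m)) (Fin (1 + m)) F) *ᵥ
        (((P⁻¹ : Matrix.GeneralLinearGroup (Fin (1 + m)) F) : Matrix (Fin (1 + m)) (Fin (1 + m)) F) *ᵥ u) = u := by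
      rw [mulVec_mulVec, ← Units.val_mul, mul_inv_cancel, Units.val_one, one_mulVec]
    rw [h1, hPx', ← hPx, h2]
  have hδ := norm_of_det (Cfsg.Agent.ClassicalGeometry.GUBasic.det_pow hF hM)
  have hδ0 : M.det ≠ 0 := fun h => by rw [h, zero_mul] at hδ; exact zero_ne_one hδ
  have hδq : M.det ^ q = (M.det)⁻¹ := eq_inv_of_mul_eq_one_right hδ
  refine conj_into (R := Cfsg.Agent.ClassicalGeometry.UnitTransv.rankOne q (((M.det)⁻¹ - 1) • w) w)
    hM hMW (Cfsg.Agent.ClassicalGeometry.PSUAutTorus.rankOne_herm hF hw ?_) ?_ ?_ (W := Submodule.span F {v}) ?_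
  · rw [sub_pow_q hF, one_pow, inv_pow, hδq, inv_inv]
    field_simp
    ring
  · intro u hu
    rw [Cfsg.Agent.ClassicalGeometry.UnitTransv.rankOne_mulVec]
    exact Submodule.add_mem _ hu (Submodule.smul_mem _ _ (Submodule.smul_mem _ _
      (Submodule.mem_span_singleton_self w)))
  · rw [Cfsg.Agent.ClassicalGeometry.UnitTransv.det_rankOne, herm_smul_left, hw, mul_one,
      add_sub_cancel, inv_mul_cancel₀ hδ0]
  · intro u hu
    obtain ⟨a, rfl⟩ := Submodule.mem_span_singleton.1 hu
    rw [act_smul, hg]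
    exact Submodule.smul_mem _ _ (Submodule.smul_mem _ _ (Submodule.mem_span_singleton_self v))

/-- the form in terms of a Gram matrix -/
theorem herm_gram (hF : Fintype.card F = q ^ 2) {ι : Type*} [Fintype ι] (P : Matrix (Fin n) ι F)
    (x y : ι → F) : hermForm n F q (P *ᵥ x) (P *ᵥ y) =
      x ⬝ᵥ ((Pᵀ * P.map (conj hF)) *ᵥ (fun i => y i ^ q)) := by
  have h1 : (fun i => (P *ᵥ y) i ^ q) = P.map (conj hF) *ᵥ (fun i => y i ^ q) := by
    funext i
    show (∑ j, P i j * y j) ^ q = ∑ j, (P.map (conj hF)) i j * y j ^ q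
    rw [sum_pow_q hF]
    refine Finset.sum_congr rfl fun j _ => ?_
    rw [mul_pow, Matrix.map_apply, conj_apply]
  have h2 : hermForm n F q (P *ᵥ x) (P *ᵥ y) = (P *ᵥ x) ⬝ᵥ (fun i => (P *ᵥ y) i ^ q) := rfl
  rw [h2, h1, ← mulVec_mulVec, Matrix.mulVec_transpose, dotProduct_comm (P *ᵥ x),
    Matrix.dotProduct_mulVec, dotProduct_comm]

open Cfsg.Agent.ClassicalGeometry.HermFrame (gramJ gramJ_def) in
/-- `SU₄` is transitive on totally singular planes. -/
theorem plane_into (hF : Fintype.card F = q ^ 2) {W W' : Submodule F (Fin 4 → F)}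
    (h2 : finrank F W = 2) (hW : ∀ u ∈ W, ∀ v ∈ W, hermForm 4 F q u v = 0)
    (h2' : finrank F W' = 2) (hW' : ∀ u ∈ W', ∀ v ∈ W', hermForm 4 F q u v = 0)
    {g : SU 4 F q} (hg : Inv g W) :
    ∃ x : SU 4 F q, x * g * x⁻¹ ∈ stab q W' := by
  obtain ⟨P, Q, hPQ, hQP, hG, hmem⟩ := Cfsg.Agent.ClassicalGeometry.HermFrame.exists_frame_matrix hF
    (k := 2) (m := 0) rfl h2 hW
  obtain ⟨P', Q', hPQ', hQP', hG', hmem'⟩ := Cfsg.Agent.ClassicalGeometry.HermFrame.exists_frame_matrix hF
    (k := 2) (m := 0) rfl h2' hW'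
  have hM : ∀ u v, hermForm 4 F q ((P' * Q) *ᵥ u) ((P' * Q) *ᵥ v) = hermForm 4 F q u v := by
    intro u v
    rw [← mulVec_mulVec, ← mulVec_mulVec, herm_gram hF, hG', ← hG, ← herm_gram hF, mulVec_mulVec,
      mulVec_mulVec, hPQ, one_mulVec, one_mulVec]
  have hδ := norm_of_det (Cfsg.Agent.ClassicalGeometry.GUBasic.det_pow hF hM)
  set δ := (P' * Q).det with hdel
  have hδ0 : δ ≠ 0 := fun h => by rw [h, zero_mul] at hδ; exact zero_ne_one hδ
  have hδq : δ ^ q = δ⁻¹ := eq_inv_of_mul_eq_one_right hδ
  -- Hilbert 90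
  obtain ⟨b, hb0, hb⟩ : ∃ b : F, b ≠ 0 ∧ b * (b ^ q)⁻¹ = δ⁻¹ := by
    obtain ⟨x0, hx0⟩ := exists_not_fixed hF
    obtain ⟨y, hy0, hy⟩ := Cfsg.Agent.ClassicalGeometry.HermWitt.hilbert90 (conj hF : F →+* F)
      (fun h => hx0 (by
        have := congrArg (fun f : F →+* F => f x0) h
        exact this)) (fun a => pow_q_pow_q hF a) δ⁻¹ (by
        show δ⁻¹ * (δ⁻¹) ^ q = 1
        rw [inv_pow, hδq, inv_inv, inv_mul_cancel₀ hδ0])
    refine ⟨y, hy0, ?_⟩
    have hy' : δ⁻¹ * y ^ q = y := hy
    rw [eq_comm, eq_mul_inv_iff_mul_eq₀ (pow_ne_zero _ hy0)]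
    exact hy'
  have hbq : b ^ q ≠ 0 := pow_ne_zero _ hb0
  let d : Fin 2 ⊕ (Fin 0 ⊕ Fin 2) → F := Sum.elim ![b, 1] (Sum.elim ![] ![(b ^ q)⁻¹, 1])
  have hD : ∀ x y : Fin 2 ⊕ (Fin 0 ⊕ Fin 2) → F,
      (Matrix.diagonal d *ᵥ x) ⬝ᵥ (gramJ 2 0 F *ᵥ (fun i => (Matrix.diagonal d *ᵥ y) i ^ q)) =
        x ⬝ᵥ (gramJ 2 0 F *ᵥ (fun i => y i ^ q)) := by
    intro x y
    have hbqq : (b ^ q) ^ q = b := pow_q_pow_q hF b
    simp only [gramJ_def, dotProduct, Matrix.mulVec, Fintype.sum_sum_type,
      Fin.sum_univ_two, Fin.sum_univ_zero, d]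
    simp
    rw [mul_pow, mul_pow, inv_pow, hbqq]
    field_simp
  have hR : ∀ u v, hermForm 4 F q ((P' * Matrix.diagonal d * Q') *ᵥ u)
      ((P' * Matrix.diagonal d * Q') *ᵥ v) = hermForm 4 F q u v := by
    intro u v
    rw [← mulVec_mulVec, ← mulVec_mulVec, ← mulVec_mulVec, ← mulVec_mulVec, herm_gram hF, hG', hD,
      ← hG', ← herm_gram hF, mulVec_mulVec, mulVec_mulVec, hPQ', one_mulVec, one_mulVec]
  refine conj_into hM ?_ hR ?_ ?_ hg
  · intro u
    rw [hmem', hmem, mulVec_mulVec, ← Matrix.mul_assoc, hQP', Matrix.one_mul]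
  · intro u hu
    rw [hmem'] at hu ⊢
    intro a
    rw [mulVec_mulVec, ← Matrix.mul_assoc, ← Matrix.mul_assoc, hQP', Matrix.one_mul, ← mulVec_mulVec,
      Matrix.mulVec_diagonal, hu a, mul_zero]
  · rw [Matrix.det_conj_of_mul_eq_one hPQ' hQP', Matrix.det_diagonal, ← hdel]
    simp only [Fintype.prod_sum_type, Fin.prod_univ_two, Fin.prod_univ_zero, d]
    simp [hb, inv_mul_cancel₀ hδ0]

/-- the stabiliser of a totally singular subspace is proper -/
theorem stab_ne_top_of_ts (hF : Fintype.card F = q ^ 2) {k m : ℕ} (hn : n = k + (m + k)) (hk : 0 < k)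
    {W : Submodule F (Fin n → F)}
    (h2 : finrank F W = k) (hW : ∀ u ∈ W, ∀ v ∈ W, hermForm n F q u v = 0) : stab q W ≠ ⊤ := by
  intro htop
  obtain ⟨e, g, f, hspan, hee, heg, hef, hgg, hgf, hff⟩ :=
    Cfsg.Agent.ClassicalGeometry.HermFrame.exists_frame hF hn h2 hW
  obtain ⟨c, hc0, hc⟩ := exists_trace_zero_ne hF
  have he : e ⟨0, hk⟩ ∈ W := by rw [← hspan]; exact Submodule.subset_span ⟨_, rfl⟩
  have hmem : Cfsg.Agent.ClassicalGeometry.UnitTransv.utv hF (f ⟨0, hk⟩) c (hff _ _) hc ∈ stab q W := by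
    rw [htop]; trivial
  have h3 := hmem _ he
  have h4 : act (Cfsg.Agent.ClassicalGeometry.UnitTransv.utv hF (f ⟨0, hk⟩) c (hff _ _) hc)
      (e ⟨0, hk⟩) = _ := Cfsg.Agent.ClassicalGeometry.UnitTransv.act_utv hF (hff _ _) hc (e ⟨0, hk⟩)
  rw [h4, hef, if_pos rfl, mul_one] at h3
  have h5 : f ⟨0, hk⟩ ∈ W := by
    have h6 := (Submodule.add_mem_iff_right W he).1 h3
    exact (W.smul_mem_iff hc0).1 h6
  have h7 := hW _ he _ h5
  rw [hef, if_pos rfl] at h7
  exact one_ne_zero h7

/-- the stabiliser of a nonsingular line is proper -/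
theorem stab_ne_top_of_line (hF : Fintype.card F = q ^ 2) {m : ℕ} :
    stab q (Submodule.span F {(Pi.single 0 1 : Fin (m + 3) → F)}) ≠ ⊤ := by
  intro htop
  obtain ⟨c, hc0, hc⟩ := exists_trace_zero_ne hF
  obtain ⟨a, ha⟩ := exists_norm_eq hF (c := (-1 : F)) (by rw [neg_pow_q hF, one_pow])
  have ha0 : a ≠ 0 := by
    rintro rfl
    rw [zero_mul] at ha
    exact one_ne_zero (neg_eq_zero.1 ha.symm)
  have h10 : (0 : Fin (m + 3)) ≠ 1 := by
    intro h
    have := congrArg Fin.val h
    simp at this
  set f : Fin (m + 3) → F := Pi.single 0 1 + Pi.single 1 a with hf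
  have hef : hermForm (m + 3) F q (Pi.single 0 1) f = 1 := by
    rw [herm_single_left, hf]
    simp [h10]
  have hff : hermForm (m + 3) F q f f = 0 := by
    have h1 : f 0 = 1 := by rw [hf]; simp [h10]
    have h2 : f 1 = a := by rw [hf]; simp [h10.symm]
    conv_lhs => rw [hf]
    rw [← hf, herm_add_left, herm_single_left, herm_single_left, h1, h2, one_pow, ha]
    ring
  have hmem : Cfsg.Agent.ClassicalGeometry.UnitTransv.utv hF f c hff hc ∈
      stab q (Submodule.span F {(Pi.single 0 1 : Fin (m + 3) → F)}) := by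
    rw [htop]; trivial
  have h3 := hmem _ (Submodule.mem_span_singleton_self _)
  have h4 : act (Cfsg.Agent.ClassicalGeometry.UnitTransv.utv hF f c hff hc)
      (Pi.single 0 1) = _ := Cfsg.Agent.ClassicalGeometry.UnitTransv.act_utv hF hff hc (Pi.single 0 1)
  rw [h4, hef, mul_one] at h3
  obtain ⟨r, hr⟩ := Submodule.mem_span_singleton.1 h3
  have h5 := congrFun hr 1
  have h2 : f 1 = a := by rw [hf]; simp [h10.symm]
  rw [Pi.smul_apply, Pi.add_apply, Pi.smul_apply, h2, Pi.single_eq_of_ne h10.symm, smul_zero, zero_add,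
    smul_eq_mul] at h5
  exact mul_ne_zero hc0 ha0 h5.symm

theorem psu4 (hF : Fintype.card F = q ^ 2) :
    ∃ H K : Subgroup (Cfsg.PSU 4 F q), H ≠ ⊤ ∧ K ≠ ⊤ ∧ ∀ g : (Cfsg.PSU 4 F q),
      ∃ x : (Cfsg.PSU 4 F q), x * g * x⁻¹ ∈ H ∨ x * g * x⁻¹ ∈ K := by
  classical
  have hw : hermForm 4 F q (Pi.single 0 1) (Pi.single 0 1) = 1 := by
    rw [herm_single_left]; simp
  by_cases hex : ∃ W : Submodule F (Fin 4 → F), finrank F W = 2 ∧
      (∀ a ∈ W, ∀ b ∈ W, hermForm 4 F q a b = 0)
  · obtain ⟨W', h2', hW'⟩ := hex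
    refine TwoCov.quot _ (stab q (Submodule.span F {(Pi.single 0 1 : Fin (1 + 3) → F)})) (stab q W')
      (stab_ne_top_of_line hF) (stab_ne_top_of_ts hF (k := 2) (m := 0) rfl (by norm_num) h2' hW')
      (center_le_stab hF (by norm_num) _) (center_le_stab hF (by norm_num) _) ?_
    intro g
    rcases UFour.class4 hF g with ⟨v, hv, c, hc⟩ | ⟨W, h2, hW, hg⟩
    · obtain ⟨x, hx⟩ := line_into hF (by norm_num) hv hw hc
      exact ⟨x, Or.inl hx⟩
    · obtain ⟨x, hx⟩ := plane_into hF h2 hW h2' hW' hg
      exact ⟨x, Or.inr hx⟩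
  · refine TwoCov.quot _ (stab q (Submodule.span F {(Pi.single 0 1 : Fin (1 + 3) → F)}))
      (stab q (Submodule.span F {(Pi.single 0 1 : Fin (1 + 3) → F)}))
      (stab_ne_top_of_line hF) (stab_ne_top_of_line hF)
      (center_le_stab hF (by norm_num) _) (center_le_stab hF (by norm_num) _) ?_
    intro g
    rcases UFour.class4 hF g with ⟨v, hv, c, hc⟩ | ⟨W, h2, hW, hg⟩
    · obtain ⟨x, hx⟩ := line_into hF (by norm_num) hv hw hc
      exact ⟨x, Or.inl hx⟩
    · exact absurd ⟨W, h2, hW⟩ hex

end Cfsg.Agent.H156.UStab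
end

-- part: H156/UAdj
section
set_option autoImplicit false

/-!
# The adjoint involution on matrices over `F_{q²}` (helper156)
-/

open Cfsg

namespace Cfsg.Agent.H156.UAdj

open Cfsg.Agent.LieClassical.HermBasic Cfsg.Agent.LieClassical.HermSiegel Polynomial Module
  Cfsg.Agent.H156.UBase Cfsg.Agent.H156.UPerp Matrix

variable {F : Type*} [Field F] [Fintype F] {q n : ℕ}

/-- the conjugate transpose -/
def ad (hF : Fintype.card F = q ^ 2) (A : Matrix (Fin n) (Fin n) F) : Matrix (Fin n) (Fin n) F :=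
  (A.map (conj hF))ᵀ

variable (hF : Fintype.card F = q ^ 2)

theorem ad_apply (A : Matrix (Fin n) (Fin n) F) (i j : Fin n) : ad hF A i j = (A j i) ^ q := rfl

theorem ad_add (A B : Matrix (Fin n) (Fin n) F) : ad hF (A + B) = ad hF A + ad hF B := by
  ext i j
  simp only [ad_apply, Matrix.add_apply, add_pow_q hF]

theorem ad_neg (A : Matrix (Fin n) (Fin n) F) : ad hF (-A) = -ad hF A := by
  ext i j
  simp only [ad_apply, Matrix.neg_apply, neg_pow_q hF]

theorem ad_sub (A B : Matrix (Fin n) (Fin n) F) : ad hF (A - B) = ad hF A - ad hF B := by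
  rw [sub_eq_add_neg, sub_eq_add_neg, ad_add, ad_neg]

theorem ad_ad (A : Matrix (Fin n) (Fin n) F) : ad hF (ad hF A) = A := by
  ext i j
  simp only [ad_apply, pow_q_pow_q hF]

theorem ad_mul (A B : Matrix (Fin n) (Fin n) F) : ad hF (A * B) = ad hF B * ad hF A := by
  ext i j
  simp only [ad_apply, Matrix.mul_apply, sum_pow_q hF, mul_pow]
  exact Finset.sum_congr rfl fun k _ => mul_comm _ _

theorem ad_one : ad hF (1 : Matrix (Fin n) (Fin n) F) = 1 := by
  ext i j
  rw [ad_apply, Matrix.one_apply, Matrix.one_apply]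
  by_cases h : i = j
  · subst h; simp
  · rw [if_neg h, if_neg (Ne.symm h), zero_pow_q hF]

theorem ad_zero : ad hF (0 : Matrix (Fin n) (Fin n) F) = 0 := by
  ext i j
  rw [ad_apply, Matrix.zero_apply, Matrix.zero_apply, zero_pow_q hF]

theorem ad_pow (A : Matrix (Fin n) (Fin n) F) (k : ℕ) : ad hF (A ^ k) = ad hF A ^ k := by
  induction k with
  | zero => rw [pow_zero, pow_zero, ad_one]
  | succ k ih => rw [pow_succ, ad_mul, ih, pow_succ']

theorem ad_algebraMap (c : F) :
    ad hF (algebraMap F (Matrix (Fin n) (Fin n) F) c) = algebraMap F _ (c ^ q) := by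
  ext i j
  rw [ad_apply, Matrix.algebraMap_matrix_apply, Matrix.algebraMap_matrix_apply]
  by_cases h : i = j
  · subst h; simp
  · rw [if_neg h, if_neg (Ne.symm h), zero_pow_q hF]

theorem herm_ad (A : Matrix (Fin n) (Fin n) F) (u v : Fin n → F) :
    hermForm n F q (A *ᵥ u) v = hermForm n F q u (ad hF A *ᵥ v) := by
  rw [herm_def, herm_def]
  have h1 : ∀ i, (ad hF A *ᵥ v) i ^ q = ∑ j, A j i * v j ^ q := by
    intro i
    show (∑ j, ad hF A i j * v j) ^ q = _
    rw [sum_pow_q hF]
    refine Finset.sum_congr rfl fun j _ => ?_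
    rw [ad_apply, mul_pow, pow_q_pow_q hF]
  simp only [h1]
  show ∑ i, (∑ j, A i j * u j) * v i ^ q = _
  simp only [Finset.sum_mul, Finset.mul_sum]
  rw [Finset.sum_comm]
  refine Finset.sum_congr rfl fun j _ => Finset.sum_congr rfl fun i _ => ?_
  ring

theorem ad_eq_of {A B : Matrix (Fin n) (Fin n) F}
    (h : ∀ u v, hermForm n F q (A *ᵥ u) v = hermForm n F q u (B *ᵥ v)) : ad hF A = B := by
  apply Matrix.ext_of_mulVec_single
  intro i
  have h1 : ∀ u, hermForm n F q u (ad hF A *ᵥ Pi.single i 1 - B *ᵥ Pi.single i 1) = 0 := by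
    intro u
    rw [herm_sub_right hF, ← herm_ad, h, sub_self]
  have h2 : ad hF A *ᵥ Pi.single i 1 - B *ᵥ Pi.single i 1 = 0 := by
    apply herm_nondeg hF
    intro u
    rw [herm_swap hF, h1, zero_pow_q hF]
  exact sub_eq_zero.1 h2

theorem mat_mul_inv (g : SU n F q) : mat g * mat g⁻¹ = 1 := by
  rw [← mat_mul, mul_inv_cancel, mat_one]

theorem mat_inv_mul (g : SU n F q) : mat g⁻¹ * mat g = 1 := by
  rw [← mat_mul, inv_mul_cancel, mat_one]

theorem ad_mat (g : SU n F q) : ad hF (mat g) = mat g⁻¹ := by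
  apply ad_eq_of
  intro u v
  have := herm_act_left g u v
  exact this

/-- `mat` as a homomorphism -/
def matHom (n : ℕ) (F : Type*) [Field F] (q : ℕ) : SU n F q →* Matrix (Fin n) (Fin n) F where
  toFun := mat
  map_one' := mat_one
  map_mul' := mat_mul

end Cfsg.Agent.H156.UAdj
end

-- part: H156/UThree
section
set_option autoImplicit false

/-!
# Elements of `SU₃(q)`, `q` a power of three (helper156)
-/

open Cfsg

namespace Cfsg.Agent.H156.UThree

open Cfsg.Agent.LieClassical.HermBasic Cfsg.Agent.LieClassical.HermSiegel Polynomial Module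
  Cfsg.Agent.H156.UBase Cfsg.Agent.H156.UPerp Matrix Cfsg.Agent.H156.Art Cfsg.Agent.H156.UAdj

variable {F : Type*} [Field F] [Fintype F] {q : ℕ}

/-- no totally singular plane in dimension three -/
theorem no_ts_plane (hF : Fintype.card F = q ^ 2) (W : Submodule F (Fin 3 → F)) (h2 : finrank F W = 2)
    (hW : ∀ a ∈ W, ∀ b ∈ W, hermForm 3 F q a b = 0) : False := by
  have h1 := finrank_perp hF W
  have h3 : W ≤ perp q W := fun a ha b hb => hW a ha b hb
  have h4 := Submodule.finrank_mono h3
  omega

theorem class3 (hF : Fintype.card F = q ^ 2) [CharP F 3] (g : SU 3 F q)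
    (hN : ∀ v : Fin 3 → F, hermForm 3 F q v v ≠ 0 → ∀ c : F, act g v ≠ c • v) :
    (∀ v : Fin 3 → F, v ≠ 0 → ∀ c : F, act g v ≠ c • v) ∨
    (∃ v : Fin 3 → F, v ≠ 0 ∧ act g v = v ∧ (mat g - 1) ^ 3 = 0 ∧
      ∀ u : Fin 3 → F, act g u = u → ∃ a : F, u = a • v) := by
  classical
  by_contra hcon
  push Not at hcon
  obtain ⟨⟨v, hv0, l, hl⟩, hT⟩ := hcon
  -- eigenvectors are singular
  have hsing : ∀ v : Fin 3 → F, (∃ c : F, act g v = c • v) → hermForm 3 F q v v = 0 := by
    rintro v ⟨c, hc⟩
    by_contra h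
    exact hN v h c hc
  -- independent eigenvectors are not orthogonal
  have hpair : ∀ v w : Fin 3 → F, (∃ c : F, act g v = c • v) → (∃ c : F, act g w = c • w) →
      LinearIndependent F ![v, w] → hermForm 3 F q v w ≠ 0 := by
    rintro v w ⟨c, hc⟩ ⟨d, hd⟩ hli h
    obtain ⟨W, h1, h2, h3⟩ := UFour.plane_of_pair hF hli (hsing v ⟨c, hc⟩) (hsing w ⟨d, hd⟩) h hc hd
    exact no_ts_plane hF W h1 h2
  -- one-dimensional invariant subspaces
  have hone : ∀ Y : Submodule F (Fin 3 → F), finrank F Y = 1 → Inv g Y →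
      ∃ v ∈ Y, v ≠ 0 ∧ ∃ c : F, act g v = c • v := by
    intro Y hY hI
    obtain ⟨v, hv0, hv⟩ := finrank_eq_one_iff'.1 hY
    refine ⟨v, v.2, fun h => hv0 (Subtype.ext h), ?_⟩
    obtain ⟨c, hc⟩ := hv ⟨act g v, hI v v.2⟩
    exact ⟨c, (congrArg Subtype.val hc).symm⟩
  -- no nondegenerate invariant line
  have hline : ∀ Y : Submodule F (Fin 3 → F), finrank F Y = 1 → Inv g Y → ¬ Nd q Y := by
    intro Y hY hI hnd
    obtain ⟨v, hvY, hv0, c, hc⟩ := hone Y hY hI
    apply hv0
    apply hnd v hvY
    intro w hw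
    obtain ⟨d, hd⟩ := (finrank_eq_one_iff_of_nonzero' (⟨v, hvY⟩ : Y) (fun h => hv0 (congrArg Subtype.val h))).1
      hY ⟨w, hw⟩
    have hd' : d • v = w := congrArg Subtype.val hd
    rw [← hd', herm_smul_right, hsing v ⟨c, hc⟩, mul_zero]
  have hvv := hsing v ⟨l, hl⟩
  have hl0 : l ≠ 0 := by
    rintro rfl
    rw [zero_smul, act_eq_zero] at hl
    exact hv0 hl
  have hlinv : act g⁻¹ v = l⁻¹ • v := by
    have h1 := congrArg (act g⁻¹) hl
    rw [act_inv_act, act_smul] at h1
    have h2 := congrArg (fun z => l⁻¹ • z) h1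
    simp only [smul_smul, inv_mul_cancel₀ hl0, one_smul] at h2
    exact h2.symm
  by_cases hnorm : l * l ^ q = 1
  · -- Case B
    let N : Module.End F (Fin 3 → F) := lin g - algebraMap F _ l
    let M : Module.End F (Fin 3 → F) := lin g⁻¹ - algebraMap F _ (l ^ q)
    have hNapp : ∀ u, N u = act g u - l • u := fun u => by
      show lin g u - algebraMap F (Module.End F (Fin 3 → F)) l u = _
      rw [Module.algebraMap_end_apply, lin_apply]
    have hMapp : ∀ u, M u = act g⁻¹ u - l ^ q • u := fun u => by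
      show lin g⁻¹ u - algebraMap F (Module.End F (Fin 3 → F)) (l ^ q) u = _
      rw [Module.algebraMap_end_apply, lin_apply]
    have hadj : ∀ u w, hermForm 3 F q (N u) w = hermForm 3 F q u (M w) := fun u w => by
      rw [hNapp, hMapp, herm_sub_left, herm_sub_right hF, herm_smul_left, herm_smul_right,
        pow_q_pow_q hF, herm_act_left]
    have hadjk : ∀ (k : ℕ) (u w), hermForm 3 F q ((N ^ k) u) w = hermForm 3 F q u ((M ^ k) w) := by
      intro k
      induction k with
      | zero => intro u w; simp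
      | succ k ih =>
        intro u w
        rw [pow_succ, Module.End.mul_apply, ih, hadj, pow_succ', Module.End.mul_apply]
    -- `M = -l^q g⁻¹ N`
    have hMN : ∀ u, M u = (- l ^ q) • act g⁻¹ (N u) := fun u => by
      rw [hMapp, hNapp, act_sub, act_inv_act, act_smul, smul_sub, smul_smul, neg_smul, neg_mul,
        mul_comm (l ^ q) l, hnorm, neg_smul, one_smul]
      abel
    have hcomm : ∀ u, N (act g⁻¹ u) = act g⁻¹ (N u) := fun u => by
      rw [hNapp, hNapp, act_sub, act_act_inv, act_inv_act, act_smul]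
    have hMk : ∀ (k : ℕ) (u), (N ^ k) u = 0 → (M ^ k) u = 0 := by
      have hcommk : ∀ (k : ℕ) u, (N ^ k) (act g⁻¹ u) = act g⁻¹ ((N ^ k) u) := by
        intro k
        induction k with
        | zero => intro u; simp
        | succ k ih => intro u; rw [pow_succ', Module.End.mul_apply, ih, hcomm, Module.End.mul_apply]
      intro k
      induction k with
      | zero => intro u h; simpa using h
      | succ k ih =>
        intro u h
        rw [pow_succ, Module.End.mul_apply]
        apply ih
        rw [hMN, map_smul, hcommk]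
        rw [pow_succ, Module.End.mul_apply] at h
        rw [h, act_zero, smul_zero]
    set K := LinearMap.ker (N ^ 3) with hK
    set R := LinearMap.range (N ^ 3) with hR
    have hKR : ∀ k ∈ K, ∀ r ∈ R, hermForm 3 F q r k = 0 := by
      rintro k hk _ ⟨z, rfl⟩
      rw [hadjk, hMk 3 k (LinearMap.mem_ker.1 hk), herm_zero_right hF]
    have hinf : K ⊓ R = ⊥ := by
      rw [Submodule.eq_bot_iff]
      rintro z ⟨hz, y, rfl⟩
      have h1 : (N ^ (3 + 3)) y = 0 := by
        rw [pow_add, Module.End.mul_apply]; exact hz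
      have h2 : LinearMap.ker (N ^ (3 + 3)) = LinearMap.ker (N ^ finrank F (Fin 3 → F)) :=
        Module.End.ker_pow_eq_ker_pow_finrank_of_le (by rw [Module.finrank_fin_fun]; omega)
      rw [Module.finrank_fin_fun] at h2
      have h3 : y ∈ LinearMap.ker (N ^ (3 + 3)) := h1
      rw [h2] at h3
      exact h3
    have hrn : finrank F R + finrank F K = 3 := by
      have := LinearMap.finrank_range_add_finrank_ker (N ^ 3)
      rw [Module.finrank_fin_fun] at this
      exact this
    have hsup : K ⊔ R = ⊤ := by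
      apply Submodule.eq_top_of_finrank_eq
      have h1 := Submodule.finrank_sup_add_finrank_inf_eq K R
      rw [hinf, finrank_bot] at h1
      rw [Module.finrank_fin_fun]
      omega
    have hKnd : Nd q K := by
      intro u hu hv
      apply herm_nondeg hF
      intro w
      have hw : w ∈ K ⊔ R := by rw [hsup]; trivial
      obtain ⟨a, ha, b, hb, rfl⟩ := Submodule.mem_sup.1 hw
      rw [herm_add_right hF, hv a ha, herm_swap hF b u, hKR u hu b hb, zero_pow_q hF, add_zero]
    have hKI : Inv g K := by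
      intro u hu
      have hcg : ∀ (k : ℕ) u, (N ^ k) (act g u) = act g ((N ^ k) u) := by
        intro k
        induction k with
        | zero => intro u; simp
        | succ k ih =>
          intro u
          rw [pow_succ', Module.End.mul_apply, ih, Module.End.mul_apply, hNapp, hNapp, act_sub, act_smul]
      rw [hK, LinearMap.mem_ker, hcg, LinearMap.mem_ker.1 hu, act_zero]
    have hNv : N v = 0 := by rw [hNapp, hl, sub_self]
    have hvK : v ∈ K := by
      rw [hK, LinearMap.mem_ker, pow_succ, Module.End.mul_apply, hNv, map_zero]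
    have hperp := finrank_perp hF K
    have hpI : Inv g (perp q K) := hKI.perp
    have hpnd : Nd q (perp q K) := hKnd.perp hF
    have hKpos : finrank F K ≠ 0 := by
      intro h
      rw [Submodule.finrank_eq_zero] at h
      rw [h, Submodule.mem_bot] at hvK
      exact hv0 hvK
    have hcases : finrank F K = 1 ∨ finrank F K = 2 ∨ finrank F K = 3 := by omega
    rcases hcases with h | h | h
    · exact hline K h hKI hKnd
    · exact hline (perp q K) (by omega) hpI hpnd
    · -- unipotent case
      have hKtop : K = ⊤ := Submodule.eq_top_of_finrank_eq (by rw [h, Module.finrank_fin_fun])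
      have hN3 : N ^ 3 = 0 := by
        apply LinearMap.ext
        intro u
        have : u ∈ K := by rw [hKtop]; trivial
        exact this
      -- the matrix version
      have hmN : (mat g - algebraMap F _ l) ^ 3 = 0 := by
        apply (Matrix.toLinAlgEquiv' (R := F) (n := Fin 3)).injective
        rw [map_pow, map_sub, map_zero, AlgEquiv.commutes]
        exact hN3
      have hp : Fact (Nat.Prime 3) := ⟨Nat.prime_three⟩
      have hchar : CharP (Matrix (Fin 3) (Fin 3) F) 3 := charP F _
      have hl1 : l = 1 := by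
        rw [sub_pow_char_of_commute 3 ((Algebra.commutes l (mat g)).symm), sub_eq_zero] at hmN
        have h3 := congrArg Matrix.det hmN
        rw [Matrix.det_pow, det_mat, one_pow, ← map_pow, Matrix.algebraMap_eq_diagonal,
          Matrix.det_diagonal, Fin.prod_univ_three] at h3
        have h3' : 1 = l ^ 3 * l ^ 3 * l ^ 3 := h3
        have h4 : l ^ 3 = 1 := cube_injective (by
          show (l ^ 3) ^ 3 = 1 ^ 3
          rw [one_pow, h3']; ring)
        exact cube_injective (by
          show l ^ 3 = 1 ^ 3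
          rw [h4, one_pow])
      subst hl1
      rw [one_smul] at hl
      rw [map_one] at hmN
      obtain ⟨w, hw, hwv⟩ := hT v hv0 hl hmN
      have hw1 : act g w = (1 : F) • w := by rw [one_smul]; exact hw
      have hv1 : act g v = (1 : F) • v := by rw [one_smul]; exact hl
      have hli : LinearIndependent F ![v, w] := by
        rw [LinearIndependent.pair_iff' hv0]
        intro a ha
        exact hwv a ha.symm
      have hne := hpair v w ⟨1, hv1⟩ ⟨1, hw1⟩ hli
      have h4 : ∀ c : F, c ^ q * hermForm 3 F q v w + (c ^ q * hermForm 3 F q v w) ^ q = 0 := by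
        intro c
        have h5 := hsing (v + c • w) ⟨1, by rw [act_add, act_smul, hl, hw, one_smul]⟩
        simp only [herm_add_left, herm_add_right hF, herm_smul_left, herm_smul_right, hvv,
          hsing w ⟨1, hw1⟩, mul_zero, add_zero, zero_add] at h5
        rw [mul_pow, pow_q_pow_q hF, ← herm_swap hF v w]
        linear_combination h5
      apply hne
      apply eq_zero_of_forall_trace hF
      intro c
      have h6 := h4 (c ^ q)
      rwa [pow_q_pow_q hF] at h6
  · -- Case A
    obtain ⟨m, hm⟩ : ∃ m : F, m = (l ^ q)⁻¹ := ⟨_, rfl⟩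
    have hmq : m ^ q = l⁻¹ := by rw [hm, inv_pow, pow_q_pow_q hF]
    obtain ⟨w, hw0, hw⟩ : ∃ w : Fin 3 → F, w ≠ 0 ∧ act g w = m • w := by
      by_contra hcon
      push Not at hcon
      let N : Module.End F (Fin 3 → F) := lin g - algebraMap F _ m
      have hNapp : ∀ u, N u = act g u - m • u := fun u => by
        show lin g u - algebraMap F (Module.End F (Fin 3 → F)) m u = _
        rw [Module.algebraMap_end_apply, lin_apply]
      have hinj : Function.Injective N := by
        rw [injective_iff_map_eq_zero]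
        intro u hu
        by_contra hu0
        apply hcon u hu0
        rw [hNapp, sub_eq_zero] at hu
        exact hu
      have hsurj := LinearMap.injective_iff_surjective.1 hinj
      apply hv0
      apply herm_nondeg hF
      intro z
      obtain ⟨y, rfl⟩ := hsurj z
      rw [hNapp, herm_sub_right hF, herm_smul_right, hmq]
      have h1 : hermForm 3 F q v (act g y) = hermForm 3 F q (act g⁻¹ v) y := by
        rw [herm_act_left, inv_inv]
      rw [h1, hlinv, herm_smul_left, sub_self]
    have hlm : l ≠ m := by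
      intro h
      apply hnorm
      rw [← h] at hmq
      rw [hmq]
      exact mul_inv_cancel₀ hl0
    have hli : LinearIndependent F ![v, w] := by
      rw [LinearIndependent.pair_iff' hv0]
      intro a ha
      have h1 : m • w = l • w := by
        rw [← hw, ← ha, act_smul, hl, smul_comm]
      have h2 : (m - l) • w = 0 := by rw [sub_smul, h1, sub_self]
      rcases smul_eq_zero.1 h2 with h | h
      · exact hlm (sub_eq_zero.1 h).symm
      · exact hw0 h
    have hvw := hpair v w ⟨l, hl⟩ ⟨m, hw⟩ hli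
    have hww := hsing w ⟨m, hw⟩
    set Y := Submodule.span F {v, w} with hY
    have hY2 : finrank F Y = 2 := UFour.finrank_pair hli
    have hYI : Inv g Y := by
      intro a ha
      obtain ⟨a1, a2, rfl⟩ := Submodule.mem_span_pair.1 ha
      rw [act_add, act_smul, act_smul, hl, hw]
      exact Submodule.add_mem _ (Submodule.smul_mem _ _ (Submodule.smul_mem _ _
        (Submodule.subset_span (by simp)))) (Submodule.smul_mem _ _ (Submodule.smul_mem _ _
        (Submodule.subset_span (by simp))))
    have hvY : v ∈ Y := Submodule.subset_span (by simp)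
    have hwY : w ∈ Y := Submodule.subset_span (by simp)
    have hYnd : Nd q Y := by
      intro a ha hb
      obtain ⟨a1, a2, rfl⟩ := Submodule.mem_span_pair.1 ha
      have h1 := hb v hvY
      have h2 := hb w hwY
      rw [herm_add_left, herm_smul_left, herm_smul_left, hvv, mul_zero, zero_add] at h1
      rw [herm_add_left, herm_smul_left, herm_smul_left, hww, mul_zero, add_zero] at h2
      have hwv : hermForm 3 F q w v ≠ 0 := fun h => hvw (herm_eq_zero_swap hF h)
      have h3 := (mul_eq_zero.1 h1).resolve_right hwv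
      have h4 := (mul_eq_zero.1 h2).resolve_right hvw
      rw [h3, h4, zero_smul, zero_smul, add_zero]
    have hperp := finrank_perp hF Y
    exact hline (perp q Y) (by omega) hYI.perp (hYnd.perp hF)

omit [Fintype F] in
/-- Elements commuting with a regular nilpotent are scalar plus nilpotent. -/
theorem commute_nilp {n : Type*} [Fintype n] [DecidableEq n] {N C : Matrix n n F} {v : n → F} {k : ℕ}
    (hk : N ^ k = 0)
    (hker : ∀ u, N *ᵥ u = 0 → ∃ a : F, u = a • v) (hNv : N *ᵥ v = 0)
    (hcomm : N * C = C * N) : ∃ l : F, C *ᵥ v = l • v ∧ (C - algebraMap F _ l) ^ k = 0 := by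
  obtain ⟨l, hl⟩ := hker (C *ᵥ v) (by
    rw [mulVec_mulVec, hcomm, ← mulVec_mulVec, hNv, mulVec_zero])
  refine ⟨l, hl, ?_⟩
  set D := C - algebraMap F _ l with hD
  have hDN : N * D = D * N := by
    rw [hD, mul_sub, sub_mul, hcomm, Algebra.commutes]
  have hDv : D *ᵥ v = 0 := by
    rw [hD, Matrix.sub_mulVec, hl, Matrix.algebraMap_eq_diagonal]
    ext i
    rw [Pi.sub_apply, Matrix.mulVec_diagonal]
    simp
  have hDNk : ∀ i : ℕ, N * D ^ i = D ^ i * N := by
    intro i
    induction i with
    | zero => simp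
    | succ i ih => rw [pow_succ, ← mul_assoc, ih, mul_assoc, hDN, mul_assoc]
  have key : ∀ (i : ℕ) (u : n → F), N ^ i *ᵥ u = 0 → D ^ i *ᵥ u = 0 := by
    intro i
    induction i with
    | zero => intro u h; simpa using h
    | succ i ih =>
      intro u h
      rw [pow_succ, ← mulVec_mulVec] at h
      have h1 := ih _ h
      rw [mulVec_mulVec, ← hDNk, ← mulVec_mulVec] at h1
      obtain ⟨a, ha⟩ := hker _ h1
      rw [pow_succ', ← mulVec_mulVec, ha, mulVec_smul, hDv, smul_zero]
  apply Matrix.ext_of_mulVec_single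
  intro i
  rw [key k _ (by rw [hk, zero_mulVec]), zero_mulVec]

theorem mem_fixed_of (hF : Fintype.card F = q ^ 2) {n : ℕ} [NeZero n] {C : Matrix (Fin n) (Fin n) F} {l : F} {k : ℕ}
    (hC : ad hF C = C) (h : (C - algebraMap F _ l) ^ k = 0) : l ^ q = l := by
  have h1 : (C - algebraMap F _ (l ^ q)) ^ k = 0 := by
    have := congrArg (ad hF) h
    rw [ad_pow, ad_sub, hC, ad_algebraMap, ad_zero] at this
    exact this
  have hcomm : Commute (C - algebraMap F _ l) (C - algebraMap F _ (l ^ q)) :=
    ((Commute.refl C).sub_right (Algebra.commutes (l ^ q) C).symm).sub_left (Algebra.commutes l _)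
  have h2 : IsNilpotent ((C - algebraMap F _ l) - (C - algebraMap F _ (l ^ q))) :=
    hcomm.isNilpotent_sub ⟨k, h⟩ ⟨k, h1⟩
  rw [sub_sub_sub_cancel_left, ← map_sub] at h2
  have h3 : IsNilpotent (l ^ q - l) := by
    obtain ⟨m, hm⟩ := h2
    refine ⟨m, ?_⟩
    rw [← map_pow] at hm
    exact (algebraMap F (Matrix (Fin n) (Fin n) F)).injective (by rw [hm, map_zero])
  exact sub_eq_zero.1 h3.eq_zero

/-- the regular unipotent case -/
theorem exists_t_unip (hF : Fintype.card F = q ^ 2) [CharP F 3] {c1 : F} (hc1 : c1 ^ q = c1)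
    (g : SU 3 F q) {v : Fin 3 → F} (hv0 : v ≠ 0) (hv : act g v = v) (hN : (mat g - 1) ^ 3 = 0)
    (hker : ∀ u : Fin 3 → F, act g u = u → ∃ a : F, u = a • v) :
    ∃ t : Matrix (Fin 3) (Fin 3) F, ad hF t = t ∧ t ^ 3 - t = algebraMap F _ c1 ∧
      mat g * t = (t + 1) * mat g := by
  have h3 : (3 : F) = 0 := by exact_mod_cast CharP.cast_eq_zero F 3
  have hNv : (mat g - 1) *ᵥ v = 0 := by
    rw [Matrix.sub_mulVec, one_mulVec]
    exact sub_eq_zero.2 hv
  have hker' : ∀ u, (mat g - 1) *ᵥ u = 0 → ∃ a : F, u = a • v := by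
    intro u hu
    apply hker
    rw [Matrix.sub_mulVec, one_mulVec, sub_eq_zero] at hu
    exact hu
  have hcom : ∀ C : Matrix (Fin 3) (Fin 3) F, mat g * C = C * mat g →
      ∃ l : F, C *ᵥ v = l • v ∧ (C - algebraMap F _ l) ^ 3 = 0 := by
    intro C hC
    apply commute_nilp hN hker' hNv
    rw [sub_mul, mul_sub, hC, one_mul, mul_one]
  -- traces
  have htr : ∀ c : Matrix (Fin 3) (Fin 3) F, mat g * c = c * mat g → c.trace = 0 := by
    intro c hc
    obtain ⟨l, _, hl⟩ := hcom c hc
    have h1 : IsNilpotent (c - algebraMap F _ l).trace :=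
      Matrix.isNilpotent_trace_of_isNilpotent ⟨3, hl⟩
    have h2 := h1.eq_zero
    rw [Matrix.trace_sub, sub_eq_zero, Matrix.algebraMap_eq_diagonal, Matrix.trace_diagonal,
      Fin.sum_univ_three] at h2
    rw [h2]
    show l + l + l = 0
    linear_combination l * h3
  obtain ⟨t0, ht0⟩ := exists_shift htr
  -- symmetrise
  set t : Matrix (Fin 3) (Fin 3) F := -(t0 + ad hF t0) with ht
  have hadt : ad hF t = t := by
    rw [ht, ad_neg, ad_add, ad_ad, add_comm]
  have h3m : (3 : Matrix (Fin 3) (Fin 3) F) = 0 := three_eq_zero F _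
  have ht0' : mat g * ad hF t0 = (ad hF t0 + 1) * mat g := by
    have h1 := congrArg (ad hF) ht0
    rw [ad_mul, ad_mul, ad_add, ad_one, ad_mat] at h1
    have h2 : mat g * (ad hF t0 * mat g⁻¹) * mat g = mat g * (mat g⁻¹ * (ad hF t0 + 1)) * mat g := by
      rw [h1]
    rw [← mul_assoc, mul_assoc (mat g * ad hF t0), mat_inv_mul, mul_one, ← mul_assoc (mat g) (mat g⁻¹),
      mat_mul_inv, one_mul] at h2
    exact h2
  have htg : mat g * t = (t + 1) * mat g := by
    have e : mat g * t = -(mat g * t0 + mat g * ad hF t0) := by rw [ht]; noncomm_ring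
    rw [e, ht0, ht0', ht]
    have e2 : -((t0 + 1) * mat g + (ad hF t0 + 1) * mat g) =
      (-(t0 + ad hF t0) + 1) * mat g - 3 * mat g := by noncomm_ring
    rw [e2, h3m, zero_mul, sub_zero]
  -- the scalars
  have hgz : mat g * (t ^ 3 - t) = (t ^ 3 - t) * mat g := by
    have h1 := shift_pow F htg 1
    rw [pow_one] at h1
    rw [mul_sub, h1, htg]
    noncomm_ring
  obtain ⟨lz, _, hlz⟩ := hcom _ hgz
  have hlzq : lz ^ q = lz := by
    apply mem_fixed_of hF _ hlz
    rw [ad_sub, ad_pow, hadt]
  have hgy : mat g * (mat g + mat g⁻¹) = (mat g + mat g⁻¹) * mat g := by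
    rw [mul_add, add_mul, mat_mul_inv, mat_inv_mul]
  obtain ⟨ly, hly, hly'⟩ := hcom _ hgy
  have hly2 : ly = 2 := by
    have h1 : (mat g + mat g⁻¹) *ᵥ v = (2 : F) • v := by
      have h2 : act g⁻¹ v = v := by
        have := congrArg (act g⁻¹) hv
        rw [act_inv_act] at this
        exact this.symm
      rw [Matrix.add_mulVec]
      show act g v + act g⁻¹ v = _
      rw [hv, h2, two_smul]
    rw [h1] at hly
    have h2 : ((2 : F) - ly) • v = 0 := by rw [sub_smul, hly, sub_self]
    rcases smul_eq_zero.1 h2 with h | h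
    · exact (sub_eq_zero.1 h).symm
    · exact absurd h hv0
  have hly0 : ly ≠ 0 := by
    rw [hly2]
    intro h
    have : (1 : F) = 0 := by linear_combination h3 - h
    exact one_ne_zero this
  have hlyq : ly ^ q = ly := by
    apply mem_fixed_of hF _ hly'
    rw [ad_add, ad_mat, ad_mat, inv_inv, add_comm]
  obtain ⟨N, c0, β, hc0, hβ, hw⟩ := core (u := mat g) (u' := mat g⁻¹) (t := t) (mat_mul_inv g)
    (mat_inv_mul g) htg (lz := lz) (ly := ly) (nz := t ^ 3 - t - algebraMap F _ lz)
    (ny := mat g + mat g⁻¹ - algebraMap F _ ly) (by abel) (by abel) ⟨3, hlz⟩ ⟨3, hly'⟩ hly0 c1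
  have hc0q : c0 ^ q = c0 := by
    apply pow_three_pow_injective N
    show (c0 ^ q) ^ 3 ^ N = c0 ^ 3 ^ N
    rw [← pow_mul, mul_comm, pow_mul, hc0, hc1]
  have hβq : β ^ q = β := by
    apply cube_injective
    show (β ^ q) ^ 3 = β ^ 3
    have h1 : (β ^ 3) ^ q * ly ^ 3 = β ^ 3 * ly ^ 3 := by
      have h2 : (β ^ 3 * ly ^ 3) ^ q = (c0 - lz) ^ q := by rw [hβ]
      rw [mul_pow, sub_pow_q hF, hc0q, hlzq, ← pow_mul ly, mul_comm 3 q, pow_mul ly, hlyq] at h2
      rw [h2, hβ]
    have h2 := mul_right_cancel₀ (pow_ne_zero 3 hly0) h1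
    rw [← pow_mul, mul_comm, pow_mul]
    exact h2
  set w := t + algebraMap F _ β * (mat g + mat g⁻¹) with hwd
  have hadw : ad hF w = w := by
    rw [hwd, ad_add, hadt, ad_mul, ad_algebraMap, hβq, ad_add, ad_mat, ad_mat, inv_inv,
      ← Algebra.commutes, add_comm (mat g⁻¹)]
  have hgw : mat g * w = (w + 1) * mat g := by
    rw [hwd, mul_add, htg, ← mul_assoc, ← Algebra.commutes β (mat g), mul_assoc, hgy]
    noncomm_ring
  refine ⟨w ^ 3 ^ N, ?_, hw, shift_pow F hgw N⟩
  rw [ad_pow, hadw]

/-- an irreducible element has no invariant subspaces -/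
theorem inv_trivial (hF : Fintype.card F = q ^ 2) {g : SU 3 F q}
    (hno : ∀ v : Fin 3 → F, v ≠ 0 → ∀ c : F, act g v ≠ c • v) (Y : Submodule F (Fin 3 → F))
    (hY : Inv g Y) (hne : Y ≠ ⊥) : Y = ⊤ := by
  have hone : ∀ Y : Submodule F (Fin 3 → F), finrank F Y = 1 → Inv g Y → False := by
    intro Y hY hI
    obtain ⟨v, hv0, hv⟩ := finrank_eq_one_iff'.1 hY
    obtain ⟨c, hc⟩ := hv ⟨act g v, hI v v.2⟩
    exact hno v (fun h => hv0 (Subtype.ext h)) c (congrArg Subtype.val hc).symm
  have h1 := finrank_perp hF Y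
  have h0 : finrank F Y ≠ 0 := fun h => hne (Submodule.finrank_eq_zero.1 h)
  have h2 : finrank F Y ≠ 1 := fun h => hone Y h hY
  have h3 : finrank F (perp q Y) ≠ 1 := fun h => hone _ h hY.perp
  exact Submodule.eq_top_of_finrank_eq (by rw [Module.finrank_fin_fun]; omega)

/-- the irreducible case -/
theorem exists_t_irr (hF : Fintype.card F = q ^ 2) [CharP F 3] {c1 : F} (hc1 : c1 ^ q = c1)
    (hc : ∀ x : F, x ^ 3 - x ≠ c1) (g : SU 3 F q)
    (hno : ∀ v : Fin 3 → F, v ≠ 0 → ∀ c : F, act g v ≠ c • v) :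
    ∃ t : Matrix (Fin 3) (Fin 3) F, ad hF t = t ∧ t ^ 3 - t = algebraMap F _ c1 ∧
      mat g * t = t * mat g := by
  have hp : Fact (Nat.Prime 3) := ⟨Nat.prime_three⟩
  have hchar : CharP (Matrix (Fin 3) (Fin 3) F) 3 := charP F _
  have hchi : (mat g).charpoly ≠ 0 := (Matrix.charpoly_monic _).ne_zero
  have hroot : ∀ c, ¬ ((mat g).charpoly).IsRoot c := by
    intro c hc
    have h1 : (LinearMap.charpoly (lin g)).IsRoot c := by
      rw [lin, Matrix.charpoly_mulVecLin]; exact hc
    rw [← Module.End.hasEigenvalue_iff_isRoot_charpoly] at h1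
    obtain ⟨v, hv⟩ := h1.exists_hasEigenvector
    exact hno v hv.2 c hv.apply_eq_smul
  have hdeg : (mat g).charpoly.natDegree = 3 := by
    rw [Matrix.charpoly_natDegree_eq_dim, Fintype.card_fin]
  have hirr : Irreducible (mat g).charpoly := by
    apply Polynomial.irreducible_of_degree_le_three_of_not_isRoot
    · rw [hdeg]; simp
    · exact hroot
  obtain ⟨G, hG⟩ := PSLCov.exists_comp (irr_AS hc) (mat g).charpoly hchi (by
    intro f hf hfd
    rw [Polynomial.natDegree_eq_of_degree_eq (Polynomial.degree_eq_degree_of_associated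
      (hf.associated_of_dvd hirr hfd)), hdeg, natDegree_AS])
  set t : Matrix (Fin 3) (Fin 3) F := aeval (mat g) G with ht
  have htc : t ^ 3 - t = algebraMap F _ c1 := by
    obtain ⟨r, hr⟩ := hG
    have h1 : aeval (mat g) ((X ^ 3 - X - C c1 : F[X]).comp G) = 0 := by
      rw [hr, map_mul, Matrix.aeval_self_charpoly, zero_mul]
    rw [aeval_comp] at h1
    simp only [map_sub, map_pow, aeval_X, aeval_C] at h1
    exact sub_eq_zero.1 h1
  have hgt : mat g * t = t * mat g := by
    have h2 : Commute (aeval (mat g) (X : F[X])) (aeval (mat g) G) := by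
      rw [Commute, SemiconjBy, ← map_mul, ← map_mul, mul_comm]
    rw [aeval_X] at h2
    exact h2
  -- the adjoint commutes with `g`
  have hgt' : mat g * ad hF t = ad hF t * mat g := by
    have h1 := congrArg (ad hF) hgt
    rw [ad_mul, ad_mul, ad_mat] at h1
    have h2 : mat g * (ad hF t * mat g⁻¹) * mat g = mat g * (mat g⁻¹ * ad hF t) * mat g := by
      rw [h1]
    rw [← mul_assoc, mul_assoc (mat g * ad hF t), mat_inv_mul, mul_one, ← mul_assoc (mat g) (mat g⁻¹),
      mat_mul_inv, one_mul] at h2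
    exact h2
  have htt : Commute (ad hF t) t := by
    have h1 : Commute (ad hF t) (mat g) := hgt'.symm
    have h2 : ∀ P : F[X], Commute (ad hF t) (aeval (mat g) P) := by
      intro P
      induction P using Polynomial.induction_on' with
      | add A B hA hB => rw [map_add]; exact hA.add_right hB
      | monomial k a =>
        rw [aeval_monomial]
        exact Commute.mul_right (Algebra.commutes a (ad hF t)).symm (h1.pow_right k)
    exact h2 G
  have htc' : (ad hF t) ^ 3 - ad hF t = algebraMap F _ c1 := by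
    have := congrArg (ad hF) htc
    rw [ad_sub, ad_pow, ad_algebraMap, hc1] at this
    exact this
  -- the difference
  set D := ad hF t - t with hD
  have hD3 : D ^ 3 = D := by
    rw [hD, sub_pow_char_of_commute 3 htt]
    have : ad hF t ^ 3 - t ^ 3 = (ad hF t ^ 3 - ad hF t) - (t ^ 3 - t) + (ad hF t - t) := by abel
    rw [this, htc, htc', sub_self, zero_add]
  have hgD : mat g * D = D * mat g := by rw [hD, mul_sub, sub_mul, hgt, hgt']
  have hscal : ∃ i : F, D = algebraMap F _ i := by
    -- an eigenvalue of `D`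
    have h1 : ∃ i : F, ∃ v : Fin 3 → F, v ≠ 0 ∧ D *ᵥ v = i • v := by
      have h3 : (3 : F) = 0 := by exact_mod_cast CharP.cast_eq_zero F 3
      by_contra hcon
      push Not at hcon
      have hinj : ∀ i : F, ∀ v : Fin 3 → F, D *ᵥ v = i • v → v = 0 := by
        intro i v hv
        by_contra h
        exact hcon i v h hv
      have h0 : ∀ v, v = (0 : Fin 3 → F) := by
        intro v
        have e3 : D *ᵥ (D *ᵥ (D *ᵥ v)) = D *ᵥ v := by
          rw [mulVec_mulVec, mulVec_mulVec, ← pow_two, ← pow_succ, hD3]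
        -- `(D - 1)(D + 1) D v = 0`
        have a1 : D *ᵥ (D *ᵥ v) = D *ᵥ v := by
          have : D *ᵥ (D *ᵥ (D *ᵥ v) - D *ᵥ v) = (-1 : F) • (D *ᵥ (D *ᵥ v) - D *ᵥ v) := by
            rw [mulVec_sub, e3, neg_smul, one_smul, neg_sub]
          exact sub_eq_zero.1 (hinj _ _ this)
        have a2 : D *ᵥ v = v := by
          have : D *ᵥ (D *ᵥ v - v) = (0 : F) • (D *ᵥ v - v) := by
            rw [mulVec_sub, a1, sub_self, zero_smul]
          exact sub_eq_zero.1 (hinj _ _ this)
        exact hinj 1 v (by rw [a2, one_smul])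
      exact one_ne_zero (congrFun (h0 (fun _ => 1)) 0)
    obtain ⟨i, v, hv0, hv⟩ := h1
    refine ⟨i, ?_⟩
    let Y : Submodule F (Fin 3 → F) := LinearMap.ker (Matrix.mulVecLin D - i • LinearMap.id)
    have hmY : ∀ u, u ∈ Y ↔ D *ᵥ u = i • u := by
      intro u
      rw [LinearMap.mem_ker, LinearMap.sub_apply, sub_eq_zero]
      rfl
    have hYI : Inv g Y := by
      intro u hu
      rw [hmY] at hu ⊢
      show D *ᵥ (mat g *ᵥ u) = i • (mat g *ᵥ u)
      rw [mulVec_mulVec, ← hgD, ← mulVec_mulVec, hu, mulVec_smul]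
    have hYtop : Y = ⊤ := by
      apply inv_trivial hF hno Y hYI
      intro h
      apply hv0
      have : v ∈ Y := (hmY v).2 hv
      rw [h, Submodule.mem_bot] at this
      exact this
    apply Matrix.ext_of_mulVec_single
    intro j
    have : (Pi.single j 1 : Fin 3 → F) ∈ Y := by rw [hYtop]; trivial
    rw [(hmY _).1 this, Matrix.algebraMap_eq_diagonal]
    ext k
    rw [Pi.smul_apply, Matrix.mulVec_diagonal]
    rfl
  obtain ⟨i, hi⟩ := hscal
  have had : ad hF t = t + algebraMap F _ i := by rw [← hi, hD]; abel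
  have hi3 : i ^ 3 = i := by
    rw [hi, ← map_pow] at hD3
    exact (algebraMap F (Matrix (Fin 3) (Fin 3) F)).injective hD3
  have hiq : i ^ q = i := by
    rcases fixed_cases hi3 with rfl | rfl | rfl
    · exact zero_pow_q hF
    · exact one_pow q
    · rw [← one_add_one_eq_two, add_pow_q hF, one_pow]
  have hi0 : i = 0 := by
    have h1 := congrArg (ad hF) had
    rw [ad_ad, ad_add, ad_algebraMap, hiq, had, add_assoc, ← map_add] at h1
    have h2 : algebraMap F (Matrix (Fin 3) (Fin 3) F) (i + i) = 0 := by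
      have := congrArg (fun x => x - t) h1
      simp only [sub_self, add_sub_cancel_left] at this
      exact this.symm
    have h3 : i + i = 0 := (algebraMap F (Matrix (Fin 3) (Fin 3) F)).injective (by rw [h2, map_zero])
    have h4 : (3 : F) = 0 := by exact_mod_cast CharP.cast_eq_zero F 3
    linear_combination i * h4 - h3
  rw [hi0, map_zero, add_zero] at had
  exact ⟨t, had, htc, hgt⟩

end Cfsg.Agent.H156.UThree
end

-- part: H156/UThreeCov
section
set_option autoImplicit false

/-!
# The normal 2-covering of `PSU₃(3^a)` (helper156)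
-/

open Cfsg

namespace Cfsg.Agent.H156.UThreeCov

open Cfsg.Agent.LieClassical.HermBasic Cfsg.Agent.LieClassical.HermSiegel Polynomial Module
  Cfsg.Agent.H156.UBase Cfsg.Agent.H156.UPerp Matrix Cfsg.Agent.H156.Art Cfsg.Agent.H156.UAdj
  Cfsg.Agent.H156.Shift Cfsg.Agent.H156.UStab

variable {F : Type*} [Field F] [Fintype F] {q : ℕ} {c : F}

section Sigma

variable (hF : Fintype.card F = q ^ 2) (hc : c ^ q = c)

include hc in
theorem map_pol : (pol c).map (conj hF : F →+* F) = pol c := by
  rw [pol, Polynomial.map_sub, Polynomial.map_sub, Polynomial.map_pow, Polynomial.map_X,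
    Polynomial.map_C]
  congr 2

/-- The involution of the field. -/
noncomputable def sig : AdjoinRoot (pol c) →+* AdjoinRoot (pol c) :=
  AdjoinRoot.map (conj hF : F →+* F) (pol c) (pol c) (dvd_of_eq (map_pol hF hc).symm)

theorem sig_root : sig hF hc (AdjoinRoot.root (pol c)) = AdjoinRoot.root (pol c) := by
  rw [sig, AdjoinRoot.map_root]

theorem sig_of (a : F) : sig hF hc (AdjoinRoot.of (pol c) a) = AdjoinRoot.of (pol c) (a ^ q) := by
  rw [sig, AdjoinRoot.map_of]; rfl

theorem sig_sig (a : AdjoinRoot (pol c)) : sig hF hc (sig hF hc a) = a := by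
  have h : (sig hF hc).comp (sig hF hc) = RingHom.id _ := by
    apply AdjoinRoot.ringHom_ext
    · ext x
      simp only [RingHom.comp_apply, RingHom.id_apply, sig_of, pow_q_pow_q hF]
    · simp only [RingHom.comp_apply, RingHom.id_apply, sig_root]
  exact congrArg (fun f : AdjoinRoot (pol c) →+* AdjoinRoot (pol c) => f a) h

variable {n : ℕ} {t : Matrix (Fin n) (Fin n) F} (had : ad hF t = t)
  (ht : t ^ 3 - t = algebraMap F _ c)

include had in
theorem rep_sig (a : AdjoinRoot (pol c)) : rep ht (sig hF hc a) = ad hF (rep ht a) := by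
  induction a using AdjoinRoot.induction_on with
  | ih P =>
    induction P using Polynomial.induction_on' with
    | add A B hA hB => rw [map_add, map_add, map_add, map_add, hA, hB, ad_add]
    | monomial k a =>
      have h1 : AdjoinRoot.mk (pol c) (monomial k a) =
          AdjoinRoot.of (pol c) a * AdjoinRoot.root (pol c) ^ k := by
        rw [← C_mul_X_pow_eq_monomial, map_mul, map_pow]; rfl
      have h2 : ∀ x : F, rep ht (AdjoinRoot.of (pol c) x) = algebraMap F _ x := fun x => by
        rw [← AdjoinRoot.algebraMap_eq, AlgHom.commutes]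
      rw [h1, map_mul (sig hF hc), map_pow (sig hF hc), sig_root, sig_of, map_mul (rep ht),
        map_mul (rep ht), map_pow (rep ht), rep_root, h2, h2, ad_mul, ad_pow, had, ad_algebraMap,
        Algebra.commutes]

end Sigma

section Orbit

variable (hF : Fintype.card F = q ^ 2) [CharP F 3] (hc : c ^ q = c) (hno : ∀ x : F, x ^ 3 - x ≠ c)
  {t : Matrix (Fin 3) (Fin 3) F} (had : ad hF t = t) (ht : t ^ 3 - t = algebraMap F _ c)

omit [Fintype F] in
include hno in
theorem rep_injective {v : Fin 3 → F} (hv : v ≠ 0) {b : AdjoinRoot (pol c)} (hb : rep ht b *ᵥ v = 0) :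
    b = 0 := by
  have : Fact (Irreducible (pol c)) := ⟨irr_AS hno⟩
  by_contra h
  apply hv
  have h1 : rep ht b⁻¹ *ᵥ (rep ht b *ᵥ v) = v := by
    rw [mulVec_mulVec, ← map_mul, inv_mul_cancel₀ h, map_one, one_mulVec]
  rw [← h1, hb, mulVec_zero]

omit [Fintype F] [CharP F 3] in
theorem finDim (c : F) : FiniteDimensional F (AdjoinRoot (pol c)) := Module.Finite.of_basis (bas c)

omit [Fintype F] in
/-- the orbit map as an equivalence -/
noncomputable def orb (hno : ∀ x : F, x ^ 3 - x ≠ c) (ht : t ^ 3 - t = algebraMap F _ c)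
    {v : Fin 3 → F} (hv : v ≠ 0) : AdjoinRoot (pol c) ≃ₗ[F] (Fin 3 → F) :=
  haveI := finDim c
  LinearMap.linearEquivOfInjective
    ({ toFun := fun b => rep ht b *ᵥ v
       map_add' := fun a b => by rw [map_add, Matrix.add_mulVec]
       map_smul' := fun a b => by rw [map_smul, Matrix.smul_mulVec]; rfl } :
        AdjoinRoot (pol c) →ₗ[F] (Fin 3 → F))
    (by
      rw [injective_iff_map_eq_zero]
      intro b hb
      exact rep_injective hno ht hv hb)
    (by rw [finrank_field, Module.finrank_fin_fun])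

omit [Fintype F] in
theorem orb_apply {v : Fin 3 → F} (hv : v ≠ 0) (b : AdjoinRoot (pol c)) :
    orb hno ht hv b = rep ht b *ᵥ v := rfl

include hc hno had ht in
theorem exists_normal : ∃ v : Fin 3 → F, v ≠ 0 ∧
    ∀ k : Fin 3, hermForm 3 F q (t ^ (k : ℕ) *ᵥ v) v = if k = 2 then 1 else 0 := by
  have hfact : Fact (Irreducible (pol c)) := ⟨irr_AS hno⟩
  have hfin : FiniteDimensional F (AdjoinRoot (pol c)) := Module.Finite.of_basis (bas c)
  have hfinite : Finite (AdjoinRoot (pol c)) := Module.finite_of_finite F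
  set v0 : Fin 3 → F := fun _ => 1 with hv0d
  have hv0 : v0 ≠ 0 := by
    intro h
    exact one_ne_zero (congrFun h 0)
  -- the functional map
  let T : AdjoinRoot (pol c) →ₗ[F] (Fin 3 → F) :=
    { toFun := fun a k => hermForm 3 F q (rep ht (a * bas c k) *ᵥ v0) v0
      map_add' := fun a b => by
        funext k
        rw [Pi.add_apply, add_mul, map_add, Matrix.add_mulVec, herm_add_left]
      map_smul' := fun a b => by
        funext k
        rw [Pi.smul_apply, smul_mul_assoc, map_smul, Matrix.smul_mulVec, herm_smul_left]; rfl }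
  have hT : ∀ a k, T a k = hermForm 3 F q (rep ht (a * bas c k) *ᵥ v0) v0 := fun a k => rfl
  have hinj : Function.Injective T := by
    rw [injective_iff_map_eq_zero]
    intro a ha
    by_contra h
    -- the functional `b ↦ h(φ(ab)v0,v0)` vanishes
    let S : AdjoinRoot (pol c) →ₗ[F] F :=
      { toFun := fun b => hermForm 3 F q (rep ht (a * b) *ᵥ v0) v0
        map_add' := fun x y => by rw [mul_add, map_add, Matrix.add_mulVec, herm_add_left]
        map_smul' := fun x y => by
          rw [mul_smul_comm, map_smul, Matrix.smul_mulVec, herm_smul_left]; rfl }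
    have hS : S = 0 := by
      apply (bas c).ext
      intro k
      exact congrFun ha k
    apply hv0
    apply herm_nondeg hF
    intro u
    obtain ⟨b, hb⟩ := (orb hno ht hv0).surjective u
    rw [orb_apply] at hb
    have h1 : S (a⁻¹ * b) = 0 := by rw [hS]; rfl
    have h2 : S (a⁻¹ * b) = hermForm 3 F q (rep ht (a * (a⁻¹ * b)) *ᵥ v0) v0 := rfl
    rw [h2, ← mul_assoc, mul_inv_cancel₀ h, one_mul, hb] at h1
    exact herm_eq_zero_swap hF h1
  have hsurj : Function.Surjective T :=
    (LinearMap.injective_iff_surjective_of_finrank_eq_finrank (by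
      rw [finrank_field, Module.finrank_fin_fun])).1 hinj
  obtain ⟨a, ha⟩ := hsurj (fun k => if k = 2 then 1 else 0)
  have ha' : ∀ k : Fin 3, hermForm 3 F q (rep ht (a * bas c k) *ᵥ v0) v0 = if k = 2 then 1 else 0 :=
    fun k => congrFun ha k
  have hsb : ∀ k : Fin 3, sig hF hc (bas c k) = bas c k := by
    intro k
    rw [bas_apply, map_pow, sig_root]
  -- `a` is fixed
  have hfix : sig hF hc a = a := by
    apply hinj
    funext k
    rw [hT, hT, ha']
    have h1 : sig hF hc a * bas c k = sig hF hc (a * bas c k) := by rw [map_mul, hsb]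
    rw [h1, rep_sig hF hc had, herm_swap hF v0, ← herm_ad, ha']
    split_ifs with h
    · exact one_pow q
    · exact zero_pow_q hF
  have ha0 : a ≠ 0 := by
    rintro rfl
    have := ha' 2
    rw [zero_mul, map_zero, zero_mulVec, herm_zero_left, if_pos rfl] at this
    exact one_ne_zero this.symm
  have hsne : sig hF hc ≠ RingHom.id _ := by
    intro h
    obtain ⟨x, hx⟩ := exists_not_fixed hF
    apply hx
    have h1 := sig_of hF hc x
    rw [h, RingHom.id_apply] at h1
    exact (AdjoinRoot.of.injective_of_degree_ne_zero (f := pol c) (by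
      rw [Polynomial.degree_eq_natDegree (pol_ne_zero c), natDegree_AS]; decide) h1).symm
  obtain ⟨e, he0, he⟩ := Cfsg.Agent.ClassicalGeometry.HermWitt.norm_surj (sig hF hc) hsne
    (sig_sig hF hc) a hfix ha0
  refine ⟨rep ht e *ᵥ v0, ?_, ?_⟩
  · intro h
    exact he0 (rep_injective hno ht hv0 h)
  · intro k
    rw [mulVec_mulVec]
    have h1 : hermForm 3 F q ((t ^ (k : ℕ) * rep ht e) *ᵥ v0) (rep ht e *ᵥ v0) =
        hermForm 3 F q (ad hF (rep ht e) *ᵥ ((t ^ (k : ℕ) * rep ht e) *ᵥ v0)) v0 := by
      rw [herm_ad hF (ad hF (rep ht e)), ad_ad]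
    rw [h1, ← rep_sig hF hc had, mulVec_mulVec]
    have h2 : rep ht (sig hF hc e) * (t ^ (k : ℕ) * rep ht e) = rep ht (a * bas c k) := by
      rw [bas_apply, ← he, map_mul, map_mul, map_pow, rep_root]
      have h3 : Commute (rep ht e) (t ^ (k : ℕ)) := by
        have : Commute (rep ht e) (rep ht (AdjoinRoot.root (pol c) ^ (k : ℕ))) := by
          rw [Commute, SemiconjBy, ← map_mul, ← map_mul, mul_comm]
        rwa [map_pow, rep_root] at this
      have h4 : rep ht e * rep ht (sig hF hc e) = rep ht (sig hF hc e) * rep ht e := by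
        rw [← map_mul, ← map_mul, mul_comm]
      rw [← h3.eq, ← mul_assoc, h4]
    rw [h2]
    exact ha' k

end Orbit

section Conj

variable (hF : Fintype.card F = q ^ 2) [CharP F 3] (hc : c ^ q = c) (hno : ∀ x : F, x ^ 3 - x ≠ c)
  {t t' : Matrix (Fin 3) (Fin 3) F} (had : ad hF t = t) (ht : t ^ 3 - t = algebraMap F _ c)
  (had' : ad hF t' = t') (ht' : t' ^ 3 - t' = algebraMap F _ c)

include hc hno had had' ht ht' in
theorem exists_conj : ∃ x : SU 3 F q, mat x * t = t' * mat x := by
  obtain ⟨v, hv0, hv⟩ := exists_normal hF hc hno had ht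
  obtain ⟨v', hv0', hv'⟩ := exists_normal hF hc hno had' ht'
  let X : (Fin 3 → F) ≃ₗ[F] (Fin 3 → F) := (orb hno ht hv0).symm.trans (orb hno ht' hv0')
  have hX : ∀ b, X (rep ht b *ᵥ v) = rep ht' b *ᵥ v' := by
    intro b
    have h1 : rep ht b *ᵥ v = orb hno ht hv0 b := (orb_apply hno ht hv0 b).symm
    rw [h1, LinearEquiv.trans_apply, LinearEquiv.symm_apply_apply, orb_apply]
  have hfun : ∀ b, hermForm 3 F q (rep ht b *ᵥ v) v = hermForm 3 F q (rep ht' b *ᵥ v') v' := by
    let S : AdjoinRoot (pol c) →ₗ[F] F :=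
      { toFun := fun b => hermForm 3 F q (rep ht b *ᵥ v) v
        map_add' := fun x y => by rw [map_add, Matrix.add_mulVec, herm_add_left]
        map_smul' := fun x y => by rw [map_smul, Matrix.smul_mulVec, herm_smul_left]; rfl }
    let S' : AdjoinRoot (pol c) →ₗ[F] F :=
      { toFun := fun b => hermForm 3 F q (rep ht' b *ᵥ v') v'
        map_add' := fun x y => by rw [map_add, Matrix.add_mulVec, herm_add_left]
        map_smul' := fun x y => by rw [map_smul, Matrix.smul_mulVec, herm_smul_left]; rfl }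
    have hS : S = S' := by
      apply (bas c).ext
      intro k
      show hermForm 3 F q (rep ht (bas c k) *ᵥ v) v = hermForm 3 F q (rep ht' (bas c k) *ᵥ v') v'
      rw [bas_apply, map_pow, map_pow, rep_root, rep_root, hv, hv']
    intro b
    exact congrArg (fun f : AdjoinRoot (pol c) →ₗ[F] F => f b) hS
  set M : Matrix (Fin 3) (Fin 3) F := LinearMap.toMatrix' (X : (Fin 3 → F) →ₗ[F] (Fin 3 → F)) with hM
  have hMv : ∀ u, M *ᵥ u = X u := fun u => by
    rw [hM, LinearMap.toMatrix'_mulVec]; rfl
  have hiso : ∀ u w, hermForm 3 F q (M *ᵥ u) (M *ᵥ w) = hermForm 3 F q u w := by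
    intro u w
    obtain ⟨a, rfl⟩ := (orb hno ht hv0).surjective u
    obtain ⟨b, rfl⟩ := (orb hno ht hv0).surjective w
    rw [orb_apply, orb_apply, hMv, hMv, hX, hX]
    have h1 : ∀ {s : Matrix (Fin 3) (Fin 3) F} (hs : ad hF s = s) (hs' : s ^ 3 - s = algebraMap F _ c)
        (y : Fin 3 → F), hermForm 3 F q (rep hs' a *ᵥ y) (rep hs' b *ᵥ y) =
          hermForm 3 F q (rep hs' (sig hF hc b * a) *ᵥ y) y := by
      intro s hs hs' y
      rw [map_mul, rep_sig hF hc hs, ← mulVec_mulVec, herm_ad hF (ad hF _), ad_ad]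
    rw [h1 had ht, h1 had' ht', hfun]
  have hMt : M * t = t' * M := by
    apply Matrix.ext_of_mulVec_single
    intro i
    obtain ⟨b, hb⟩ := (orb hno ht hv0).surjective (Pi.single i 1)
    rw [← hb, orb_apply, ← mulVec_mulVec, ← mulVec_mulVec, hMv, hMv]
    have h1 : t *ᵥ (rep ht b *ᵥ v) = rep ht (AdjoinRoot.root (pol c) * b) *ᵥ v := by
      rw [map_mul, rep_root, mulVec_mulVec]
    have h2 : t' *ᵥ (rep ht' b *ᵥ v') = rep ht' (AdjoinRoot.root (pol c) * b) *ᵥ v' := by
      rw [map_mul, rep_root, mulVec_mulVec]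
    rw [h1, hX, hX, h2]
  -- determinant
  have hδ := norm_of_det (Cfsg.Agent.ClassicalGeometry.GUBasic.det_pow hF hiso)
  have hδ0 : M.det ≠ 0 := fun h => by rw [h, zero_mul] at hδ; exact zero_ne_one hδ
  obtain ⟨r, hr⟩ := cube_surjective (M.det)⁻¹
  have hr' : r ^ 3 = (M.det)⁻¹ := hr
  have hrq : r * r ^ q = 1 := by
    apply cube_injective
    show (r * r ^ q) ^ 3 = 1 ^ 3
    rw [mul_pow, ← pow_mul, mul_comm q 3, pow_mul, hr', inv_pow, ← mul_inv, hδ, inv_one, one_pow]
  refine ⟨mkSU (r • M) ?_ ?_, ?_⟩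
  · rw [Matrix.det_smul, Fintype.card_fin, hr', inv_mul_cancel₀ hδ0]
  · intro u w
    rw [Matrix.smul_mulVec, Matrix.smul_mulVec, herm_smul_left, herm_smul_right, hiso, ← mul_assoc,
      hrq, one_mul]
  · rw [mat_mkSU, Matrix.smul_mul, Matrix.mul_smul, hMt]

include hF hno had ht in
/-- the stabiliser of `t` is proper -/
theorem shiftStab_ne_top : shiftStab F (matHom 3 F q) t ≠ ⊤ := by
  intro htop
  -- an isotropic vector
  obtain ⟨cc, hc0, hcc⟩ := exists_trace_zero_ne hF
  obtain ⟨a, ha⟩ := exists_norm_eq hF (c := (-1 : F)) (by rw [neg_pow_q hF, one_pow])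
  set f : Fin 3 → F := ![1, a, 0] with hf
  have hf0 : f ≠ 0 := fun h => one_ne_zero (congrFun h 0)
  have hff : hermForm 3 F q f f = 0 := by
    rw [herm_def, Fin.sum_univ_three, hf]
    simp [ha]
  have hmem : (Cfsg.Agent.ClassicalGeometry.UnitTransv.utv hF f cc hff hcc) ∈
      shiftStab F (matHom 3 F q) t := by rw [htop]; trivial
  obtain ⟨i, hi, hi'⟩ := hmem
  have hT : ∀ u, mat (Cfsg.Agent.ClassicalGeometry.UnitTransv.utv hF f cc hff hcc) *ᵥ u =
      u + (cc * hermForm 3 F q u f) • f := fun u =>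
    Cfsg.Agent.ClassicalGeometry.UnitTransv.act_utv hF hff hcc u
  have key : ∀ u, (cc * hermForm 3 F q u (t *ᵥ f)) • f =
      (cc * hermForm 3 F q u f) • (t *ᵥ f) + i • u + (i * (cc * hermForm 3 F q u f)) • f := by
    intro u
    have h1 : (mat (Cfsg.Agent.ClassicalGeometry.UnitTransv.utv hF f cc hff hcc) * t) *ᵥ u =
        ((t + algebraMap F _ i) * mat (Cfsg.Agent.ClassicalGeometry.UnitTransv.utv hF f cc hff hcc)) *ᵥ u :=
      congrArg (fun M => M *ᵥ u) hi'
    rw [← mulVec_mulVec, ← mulVec_mulVec, hT, hT, Matrix.add_mulVec, mulVec_add, mulVec_smul,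
      herm_ad hF t, had] at h1
    have h2 : ∀ y : Fin 3 → F, (algebraMap F (Matrix (Fin 3) (Fin 3) F) i) *ᵥ y = i • y := by
      intro y
      rw [Matrix.algebraMap_eq_diagonal]
      ext k
      rw [Matrix.mulVec_diagonal]
      rfl
    rw [h2, smul_add, smul_smul, add_assoc] at h1
    have h3 := add_left_cancel h1
    rw [h3, add_assoc]
  -- `i = 0`
  have hi0 : i = 0 := by
    set W := Submodule.span F {f, t *ᵥ f} with hW
    have h1 := finrank_perp hF W
    have h2 : finrank F W ≤ 2 := by
      classical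
      have := finrank_span_finset_le_card (R := F) ({f, t *ᵥ f} : Finset (Fin 3 → F))
      rw [Finset.coe_pair] at this
      exact this.trans Finset.card_le_two
    have h3 : perp q W ≠ ⊥ := by
      intro h
      rw [h, finrank_bot] at h1
      omega
    obtain ⟨u, hu, hu0⟩ := Submodule.exists_mem_ne_zero_of_ne_bot h3
    have h4 : hermForm 3 F q u f = 0 := hu f (Submodule.subset_span (by simp))
    have h5 : hermForm 3 F q u (t *ᵥ f) = 0 := hu _ (Submodule.subset_span (by simp))
    have h6 := key u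
    rw [h4, h5, mul_zero, zero_smul, mul_zero, zero_smul, zero_add, zero_smul, add_zero] at h6
    exact (smul_eq_zero.1 h6.symm).resolve_right hu0
  obtain ⟨u, hu⟩ := exists_herm_ne_zero hF hf0
  have hu' : hermForm 3 F q u f ≠ 0 := fun h => hu (herm_eq_zero_swap hF h)
  have h1 := key u
  rw [hi0, zero_smul, zero_mul, zero_smul, add_zero, add_zero] at h1
  have h2 : t *ᵥ f = (hermForm 3 F q u (t *ᵥ f) * (hermForm 3 F q u f)⁻¹) • f := by
    have h3 : (hermForm 3 F q u f) • (t *ᵥ f) = (hermForm 3 F q u (t *ᵥ f)) • f := by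
      have := congrArg (fun y => cc⁻¹ • y) h1
      simp only [smul_smul] at this
      rw [← mul_assoc, ← mul_assoc, inv_mul_cancel₀ hc0, one_mul, one_mul] at this
      exact this.symm
    rw [mul_comm, mul_smul, ← h3, smul_smul, inv_mul_cancel₀ hu', one_smul]
  set μ := hermForm 3 F q u (t *ᵥ f) * (hermForm 3 F q u f)⁻¹ with hμ
  have h3 : (t ^ 3 - t) *ᵥ f = (μ ^ 3 - μ) • f := by
    rw [Matrix.sub_mulVec, pow_succ, pow_two, ← mulVec_mulVec, ← mulVec_mulVec, h2, mulVec_smul,
      mulVec_smul, h2, mulVec_smul, h2, smul_smul, smul_smul, ← sub_smul]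
    congr 1
    ring
  rw [ht, Matrix.algebraMap_eq_diagonal] at h3
  have h4 := congrFun h3 0
  rw [Matrix.mulVec_diagonal] at h4
  apply hno μ
  have h5 : c * 1 = (μ ^ 3 - μ) * 1 := h4
  linear_combination -h5

end Conj

/-- A fixed scalar not of the form `x³ - x`. -/
theorem exists_scalar (hF : Fintype.card F = q ^ 2) [CharP F 3] :
    ∃ c : F, c ^ q = c ∧ ∀ x : F, x ^ 3 - x ≠ c := by
  by_contra hcon
  push Not at hcon
  let A := {x : F // x ^ q = x}
  let f : A → A := fun x => ⟨x.1 ^ 3 - x.1, by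
    rw [sub_pow_q hF, ← pow_mul, mul_comm, pow_mul, x.2]⟩
  have hsurj : Function.Surjective f := by
    rintro ⟨c, hc⟩
    obtain ⟨x, hx⟩ := hcon c hc
    have hx2 : (x ^ q) ^ 3 - x ^ q = c := by
      rw [← hc, ← hx, sub_pow_q hF, ← pow_mul, ← pow_mul, mul_comm q 3]
    have hd : (x ^ q - x) ^ 3 = x ^ q - x := by
      have := sub_as (x ^ q) x
      rw [hx, hx2, sub_self] at this
      exact sub_eq_zero.1 this
    have hfix : x ^ q = x := by
      set d := x ^ q - x with hdd
      have hxq : x ^ q = x + d := by rw [hdd]; ring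
      have hdq : d ^ q = d := by
        rcases fixed_cases hd with h | h | h
        · rw [h]; exact zero_pow_q hF
        · rw [h]; exact one_pow q
        · rw [h, ← one_add_one_eq_two, add_pow_q hF, one_pow]
      have h1 := pow_q_pow_q hF x
      rw [hxq, add_pow_q hF, hxq, hdq] at h1
      have h3 : (3 : F) = 0 := by exact_mod_cast CharP.cast_eq_zero F 3
      have h2 : d = 0 := by linear_combination d * h3 - h1
      rw [hxq, h2, add_zero]
    exact ⟨⟨x, hfix⟩, Subtype.ext hx⟩
  have hinj := Finite.injective_iff_surjective.mpr hsurj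
  have h01 : (⟨0, zero_pow_q hF⟩ : A) = ⟨1, one_pow q⟩ := hinj (Subtype.ext (by
    show (0 : F) ^ 3 - 0 = 1 ^ 3 - 1
    ring))
  exact zero_ne_one (congrArg Subtype.val h01)

theorem psu3 (hF : Fintype.card F = q ^ 2) [CharP F 3] :
    ∃ H K : Subgroup (Cfsg.PSU 3 F q), H ≠ ⊤ ∧ K ≠ ⊤ ∧ ∀ g : (Cfsg.PSU 3 F q),
      ∃ x : (Cfsg.PSU 3 F q), x * g * x⁻¹ ∈ H ∨ x * g * x⁻¹ ∈ K := by
  classical
  have hw : hermForm 3 F q (Pi.single 0 1) (Pi.single 0 1) = 1 := by
    rw [herm_single_left]; simp
  obtain ⟨c, hc, hno⟩ := exists_scalar hF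
  -- the alternative for every element
  have halt : ∀ g : SU 3 F q, (∃ v : Fin 3 → F, hermForm 3 F q v v ≠ 0 ∧ ∃ d : F, act g v = d • v) ∨
      ∃ t : Matrix (Fin 3) (Fin 3) F, ad hF t = t ∧ t ^ 3 - t = algebraMap F _ c ∧
        ∃ i : F, i ^ 3 = i ∧ mat g * t = (t + algebraMap F _ i) * mat g := by
    intro g
    by_cases h : ∃ v : Fin 3 → F, hermForm 3 F q v v ≠ 0 ∧ ∃ d : F, act g v = d • v
    · exact Or.inl h
    · right
      push Not at h
      rcases UThree.class3 hF g h with h1 | ⟨v, hv0, hv, hN, hker⟩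
      · obtain ⟨t, h2, h3, h4⟩ := UThree.exists_t_irr hF hc hno g h1
        exact ⟨t, h2, h3, 0, by ring, by rw [map_zero, add_zero, h4]⟩
      · obtain ⟨t, h2, h3, h4⟩ := UThree.exists_t_unip hF hc g hv0 hv hN hker
        exact ⟨t, h2, h3, 1, by ring, by rw [map_one, h4]⟩
  by_cases hex : ∃ t : Matrix (Fin 3) (Fin 3) F, ad hF t = t ∧ t ^ 3 - t = algebraMap F _ c
  · obtain ⟨t0, had0, ht0⟩ := hex
    refine TwoCov.quot _ (stab q (Submodule.span F {(Pi.single 0 1 : Fin (0 + 3) → F)}))
      (shiftStab F (matHom 3 F q) t0) (stab_ne_top_of_line hF) (shiftStab_ne_top hF hno had0 ht0)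
      (center_le_stab hF (by norm_num) _) ?_ ?_
    · intro z hz
      obtain ⟨d, _, _, hd⟩ := Cfsg.Agent.ClassicalGeometry.PSUAutBasic.exists_scalar_of_mem_center hF
        (by norm_num) hz
      refine ⟨0, by ring, ?_⟩
      rw [map_zero, add_zero]
      apply Matrix.ext_of_mulVec_single
      intro i
      have hd' : ∀ v, mat z *ᵥ v = d • v := hd
      show (mat z * t0) *ᵥ _ = (t0 * mat z) *ᵥ _
      rw [← mulVec_mulVec, ← mulVec_mulVec, hd', hd', mulVec_smul]
    · intro g
      rcases halt g with ⟨v, hv, d, hd⟩ | ⟨t, had, ht, i, hi, hg⟩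
      · obtain ⟨x, hx⟩ := line_into hF (by norm_num) hv hw hd
        exact ⟨x, Or.inl hx⟩
      · obtain ⟨x, hx⟩ := exists_conj hF hc hno had ht had0 ht0
        exact ⟨x, Or.inr (conj_mem (ρ := matHom 3 F q) hi hg hx)⟩
  · refine TwoCov.quot _ (stab q (Submodule.span F {(Pi.single 0 1 : Fin (0 + 3) → F)}))
      (stab q (Submodule.span F {(Pi.single 0 1 : Fin (0 + 3) → F)}))
      (stab_ne_top_of_line hF) (stab_ne_top_of_line hF)
      (center_le_stab hF (by norm_num) _) (center_le_stab hF (by norm_num) _) ?_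
    intro g
    rcases halt g with ⟨v, hv, d, hd⟩ | ⟨t, had, ht, _⟩
    · obtain ⟨x, hx⟩ := line_into hF (by norm_num) hv hw hd
      exact ⟨x, Or.inl hx⟩
    · exact absurd ⟨t, had, ht⟩ hex

end Cfsg.Agent.H156.UThreeCov
end
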